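import Cfsg.Agent.S0799
import Cfsg.Agent.ClassicalGeometry.PSL2Basic
import Cfsg.Agent.H436.TTPsl2

/-!
# S3691, row `PSL_2(q)`: the numerical part of Dickson's list (helper370)
-/

set_option autoImplicit false

namespace Cfsg.Agent.H370.Rg.P2

open Subgroup
open Cfsg.Agent.ClassicalGeometry

/-! ### numbers -/

theorem pow_bound {f : ℕ} (h : 36 ≤ f) : 262144 * f ^ 3 ≤ 2 ^ f := by
  induction f, h using Nat.le_induction with
  | base => norm_num
  | succ n hn ih =>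
    have h1 : (n + 1) ^ 3 ≤ 2 * n ^ 3 := by
      nlinarith [Nat.mul_le_mul hn hn, Nat.mul_le_mul (Nat.mul_le_mul hn hn) hn, Nat.mul_le_mul hn (le_refl (n * n))]
    calc 262144 * (n + 1) ^ 3 ≤ 262144 * (2 * n ^ 3) := Nat.mul_le_mul_left _ h1
      _ = 2 * (262144 * n ^ 3) := by ring
      _ ≤ 2 * 2 ^ n := Nat.mul_le_mul_left _ ih
      _ = 2 ^ (n + 1) := by rw [pow_succ]; ring

theorem le_q {p f q : ℕ} (hp : 2 ≤ p) (hq : q = p ^ f) (hbig : 29823000000 < q) : 262144 * f ^ 3 ≤ q := by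
  rcases Nat.lt_or_ge f 36 with h | h
  · have h1 : f ^ 3 ≤ 35 ^ 3 := Nat.pow_le_pow_left (by omega) 3
    omega
  · exact (pow_bound h).trans (by rw [hq]; exact Nat.pow_le_pow_left hp f)

theorem gcd_dvd_mul (n a b : ℕ) : Nat.gcd n (a * b) ∣ Nat.gcd n a * Nat.gcd n b := Nat.gcd_mul_right_dvd_mul_gcd n a b

theorem gcd_succ_pred {q : ℕ} (hq : 1 ≤ q) : Nat.gcd (q + 1) (q - 1) ∣ 2 := by
  have h1 : Nat.gcd (q + 1) (q - 1) ∣ q + 1 := Nat.gcd_dvd_left _ _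
  have h2 : Nat.gcd (q + 1) (q - 1) ∣ q - 1 := Nat.gcd_dvd_right _ _
  have h3 := Nat.dvd_sub h1 h2
  have h4 : q + 1 - (q - 1) = 2 := by omega
  rwa [h4] at h3

theorem gcd_self_pred {q : ℕ} (hq : 1 ≤ q) : Nat.gcd q (q - 1) = 1 := by
  have h1 : Nat.gcd q (q - 1) ∣ q := Nat.gcd_dvd_left _ _
  have h2 : Nat.gcd q (q - 1) ∣ q - 1 := Nat.gcd_dvd_right _ _
  have h3 := Nat.dvd_sub h1 h2
  have h4 : q - (q - 1) = 1 := by omega
  rw [h4] at h3
  exact Nat.dvd_one.1 h3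

theorem gcd_succ_self (q : ℕ) : Nat.gcd (q + 1) q = 1 := by simp

theorem gcd_self_succ (q : ℕ) : Nat.gcd q (q + 1) = 1 := by simp

theorem cube_le_of_le {g c q : ℕ} (h : g ≤ c) (hc : c ^ 3 ≤ 64 * q) : g ^ 3 ≤ 64 * q := (Nat.pow_le_pow_left h 3).trans hc

theorem sq_le_of_le {g c q : ℕ} (h : g ≤ c) (hc : c ^ 2 ≤ q) : g ^ 2 ≤ q := (Nat.pow_le_pow_left h 2).trans hc

/-- orders dividing `2 (q + 1)` -/
theorem gcd_plus {q x : ℕ} (hx : x ∣ 2 * (q + 1)) : Nat.gcd q x ≤ 2 := by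
  have h1 : Nat.gcd q x ∣ Nat.gcd q 2 * Nat.gcd q (q + 1) := (Nat.gcd_dvd_gcd_of_dvd_right q hx).trans (gcd_dvd_mul _ _ _)
  rw [gcd_self_succ, mul_one] at h1
  exact Nat.le_of_dvd (by norm_num) (h1.trans (Nat.gcd_dvd_right _ _))

/-- orders dividing `2 (q - 1)` -/
theorem gcd_minus {q x : ℕ} (hq : 1 ≤ q) (hx : x ∣ 2 * (q - 1)) : Nat.gcd (q + 1) x ≤ 4 ∧ Nat.gcd q x ≤ 2 := by
  constructor
  · have h1 : Nat.gcd (q + 1) x ∣ Nat.gcd (q + 1) 2 * Nat.gcd (q + 1) (q - 1) :=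
      (Nat.gcd_dvd_gcd_of_dvd_right _ hx).trans (gcd_dvd_mul _ _ _)
    exact Nat.le_of_dvd (by norm_num) (h1.trans (Nat.mul_dvd_mul (Nat.gcd_dvd_right _ _) (gcd_succ_pred hq)))
  · have h1 : Nat.gcd q x ∣ Nat.gcd q 2 * Nat.gcd q (q - 1) := (Nat.gcd_dvd_gcd_of_dvd_right q hx).trans (gcd_dvd_mul _ _ _)
    rw [gcd_self_pred hq, mul_one] at h1
    exact Nat.le_of_dvd (by norm_num) (h1.trans (Nat.gcd_dvd_right _ _))

/-- orders dividing `q (q - 1)` -/
theorem gcd_borel {q x : ℕ} (hq : 1 ≤ q) (hx : x ∣ q * (q - 1)) : Nat.gcd (q + 1) x ≤ 4 := by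
  have h1 : Nat.gcd (q + 1) x ∣ Nat.gcd (q + 1) q * Nat.gcd (q + 1) (q - 1) :=
    (Nat.gcd_dvd_gcd_of_dvd_right _ hx).trans (gcd_dvd_mul _ _ _)
  rw [gcd_succ_self, one_mul] at h1
  exact (Nat.le_of_dvd (by norm_num) (h1.trans (gcd_succ_pred hq))).trans (by norm_num)

/-- orders dividing `q₀ (q₀² - 1)`, `q = q₀ ^ m`, `m ≥ 2` -/
theorem gcd_sub {q x a m : ℕ} (ha : 2 ≤ a) (hm : 2 ≤ m) (h : a ^ m = q) (hx : x ∣ a * (a ^ 2 - 1)) :
    Nat.gcd (q + 1) x ^ 3 ≤ 64 * q ∧ Nat.gcd q x ^ 2 ≤ q := by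
  have hq : 1 ≤ q := by rw [← h]; exact Nat.one_le_pow _ _ (by omega)
  have haq : a ∣ q := by rw [← h]; exact dvd_pow_self a (by omega)
  have ha2 : a ^ 2 ≤ q := by rw [← h]; exact Nat.pow_le_pow_right (by omega) hm
  constructor
  · have h1 : Nat.gcd (q + 1) x ∣ Nat.gcd (q + 1) a * Nat.gcd (q + 1) (a ^ 2 - 1) :=
      (Nat.gcd_dvd_gcd_of_dvd_right _ hx).trans (gcd_dvd_mul _ _ _)
    have h2 : Nat.gcd (q + 1) a = 1 := by
      have := Nat.gcd_dvd_gcd_of_dvd_right (q + 1) haq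
      rw [gcd_succ_self] at this
      exact Nat.dvd_one.1 this
    rw [h2, one_mul] at h1
    rcases Nat.even_or_odd m with ⟨j, hj⟩ | ⟨j, hj⟩
    · have h3 : a ^ 2 - 1 ∣ q - 1 := by
        have h4 : q = (a ^ 2) ^ j := by rw [← h, ← pow_mul, hj]; congr 1; omega
        have h5 := Nat.sub_dvd_pow_sub_pow (a ^ 2) 1 j
        rwa [one_pow, ← h4] at h5
      have h4 : Nat.gcd (q + 1) x ∣ 2 := h1.trans ((Nat.gcd_dvd_gcd_of_dvd_right _ h3).trans (gcd_succ_pred hq))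
      have h5 : Nat.gcd (q + 1) x ≤ 2 := Nat.le_of_dvd (by norm_num) h4
      exact cube_le_of_le h5 (by omega)
    · have h3 : a ^ 3 ≤ q := by rw [← h]; exact Nat.pow_le_pow_right (by omega) (by omega)
      have h4 : a ^ 2 - 1 = (a - 1) * (a + 1) := by
        have := Nat.sq_sub_sq a 1
        rw [one_pow] at this
        rw [this, mul_comm]
      rw [h4] at h1
      have h5 : a - 1 ∣ q - 1 := by
        have := Nat.sub_dvd_pow_sub_pow a 1 m
        rwa [one_pow, h] at this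
      have h6 : Nat.gcd (q + 1) x ∣ 2 * (a + 1) :=
        h1.trans ((gcd_dvd_mul _ _ _).trans (Nat.mul_dvd_mul ((Nat.gcd_dvd_gcd_of_dvd_right _ h5).trans (gcd_succ_pred hq))
          (Nat.gcd_dvd_right _ _)))
      have h7 : Nat.gcd (q + 1) x ≤ 4 * a := (Nat.le_of_dvd (by omega) h6).trans (by omega)
      exact cube_le_of_le h7 (by
        calc (4 * a) ^ 3 = 64 * a ^ 3 := by ring
          _ ≤ 64 * q := Nat.mul_le_mul_left _ h3)
  · have h1 : Nat.gcd q x ∣ Nat.gcd q a * Nat.gcd q (a ^ 2 - 1) :=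
      (Nat.gcd_dvd_gcd_of_dvd_right _ hx).trans (gcd_dvd_mul _ _ _)
    have h2 : Nat.Coprime q (a ^ 2 - 1) := by
      rw [← h]
      apply Nat.Coprime.pow_left
      have h3 : Nat.Coprime (a ^ 2) (a ^ 2 - 1) := gcd_self_pred (Nat.one_le_pow _ _ (by omega))
      exact Nat.Coprime.coprime_dvd_left (dvd_pow_self a (by norm_num)) h3
    rw [h2.gcd_eq_one, mul_one] at h1
    have h3 : Nat.gcd q x ≤ a := Nat.le_of_dvd (by omega) (h1.trans (Nat.gcd_dvd_right _ _))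
    exact sq_le_of_le h3 ha2

/-! ### Dickson -/

section

variable {F : Type*} [Field F] [Fintype F]

local notation "L" => Matrix.ProjectiveSpecialLinearGroup (Fin 2) F

/-- subgroup of type `(a+)` -/
def Plus (q : ℕ) (X : Type*) [Group X] : Prop :=
  ∃ k : ℕ, k ∣ (q + 1) / Nat.gcd 2 (q - 1) ∧ ((IsCyclic X ∧ Nat.card X = k) ∨ Nonempty (X ≃* DihedralGroup k))

theorem Plus.card_dvd {q : ℕ} {X : Type*} [Group X] (h : Plus q X) : Nat.card X ∣ 2 * ((q + 1) / Nat.gcd 2 (q - 1)) := by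
  obtain ⟨k, hk, ⟨-, h1⟩ | ⟨⟨e⟩⟩⟩ := h
  · rw [h1]; exact hk.mul_left 2
  · rw [Nat.card_congr e.toEquiv, DihedralGroup.nat_card]
    exact Nat.mul_dvd_mul_left 2 hk

theorem div_dvd' {q : ℕ} (hq : 1 ≤ q) : (q + 1) / Nat.gcd 2 (q - 1) ∣ q + 1 := by
  rcases Nat.even_or_odd q with h | h
  · obtain ⟨a, ha⟩ := h
    have : Nat.gcd 2 (q - 1) = 1 := by
      rw [← Nat.coprime_iff_gcd_eq_one, Nat.coprime_two_left, Nat.odd_iff]; omega
    rw [this, Nat.div_one]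
  · have h1 : Nat.gcd 2 (q - 1) ∣ q + 1 := by
      refine (Nat.gcd_dvd_left _ _).trans ?_
      rw [← even_iff_two_dvd]
      exact h.add_one
    exact Nat.div_dvd_of_dvd h1

theorem div_dvd'' {q : ℕ} : (q - 1) / Nat.gcd 2 (q - 1) ∣ q - 1 := Nat.div_dvd_of_dvd (Nat.gcd_dvd_right _ _)

theorem Plus.card_dvd' {q : ℕ} (hq : 1 ≤ q) {X : Type*} [Group X] (h : Plus q X) : Nat.card X ∣ 2 * (q + 1) :=
  h.card_dvd.trans (Nat.mul_dvd_mul_left 2 (div_dvd' hq))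

theorem card_L : Nat.gcd 2 (Fintype.card F - 1) * Nat.card L = Fintype.card F * (Fintype.card F ^ 2 - 1) :=
  (mul_comm _ _).trans (PSL2Basic.card_PSL2_gcd F)

theorem sq_sub (q : ℕ) : q ^ 2 - 1 = (q - 1) * (q + 1) := by
  have := Nat.sq_sub_sq q 1
  rw [one_pow] at this
  rw [this, mul_comm]

theorem card_normalizer (p : ℕ) [Fact p.Prime] [CharP F p] (P : Sylow p L) :
    Nat.gcd 2 (Fintype.card F - 1) * Nat.card (normalizer ((P : Subgroup L) : Set L)) = Fintype.card F * (Fintype.card F - 1) := by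
  have h1 := (normalizer ((P : Subgroup L) : Set L)).card_mul_index
  rw [Cfsg.Agent.H436.TT.index_normalizer p P] at h1
  have h2 := card_L (F := F)
  rw [← h1, sq_sub, ← mul_assoc, ← mul_assoc] at h2
  exact Nat.eq_of_mul_eq_mul_right (Nat.succ_pos _) h2

/-- the order of a subgroup of type `(b)` -/
def Borel (p : ℕ) (F : Type*) [Field F] (X : Type*) [Group X] : Prop :=
  ∃ (P : Sylow p (Matrix.ProjectiveSpecialLinearGroup (Fin 2) F)) (K : Subgroup (Matrix.ProjectiveSpecialLinearGroup (Fin 2) F)),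
    K ≤ normalizer ((P : Subgroup (Matrix.ProjectiveSpecialLinearGroup (Fin 2) F)) :
      Set (Matrix.ProjectiveSpecialLinearGroup (Fin 2) F)) ∧ Nonempty (X ≃* K)

theorem Borel.card_dvd {p : ℕ} [Fact p.Prime] [CharP F p] {X : Type*} [Group X] (h : Borel p F X) :
    Nat.card X ∣ Fintype.card F * (Fintype.card F - 1) := by
  obtain ⟨P, K, hK, ⟨e⟩⟩ := h
  rw [Nat.card_congr e.toEquiv]
  exact (Subgroup.card_dvd_of_le hK).trans (Dvd.intro_left _ (card_normalizer p P))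

/-- **Dickson**, numerically -/
theorem dickson (p : ℕ) [Fact p.Prime] [CharP F p] (hbig : 29823000000 < Fintype.card F) (X : Subgroup L) (hX : X ≠ ⊤) :
    Plus (Fintype.card F) X ∨
    (Nat.gcd (Fintype.card F + 1) (Nat.card X) ^ 3 ≤ 64 * Fintype.card F ∧
      (Nat.gcd (Fintype.card F) (Nat.card X) ^ 2 ≤ Fintype.card F ∨ Borel p F X)) := by
  have hq1 : 1 ≤ Fintype.card F := by omega
  rcases Cfsg.Agent.S0799.result (F := F) rfl p X with ⟨k, hk | hk, h⟩ | h | h | h | h | ⟨K, _, _, m, hm, h⟩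
  · exact Or.inl ⟨k, hk, h⟩
  · right
    have h1 : Nat.card X ∣ 2 * (Fintype.card F - 1) := by
      have hk' : k ∣ Fintype.card F - 1 := hk.trans div_dvd''
      rcases h with ⟨-, h1⟩ | ⟨⟨e⟩⟩
      · rw [h1]; exact hk'.mul_left 2
      · rw [Nat.card_congr e.toEquiv, DihedralGroup.nat_card]
        exact Nat.mul_dvd_mul_left 2 hk'
    obtain ⟨h2, h3⟩ := gcd_minus hq1 h1
    exact ⟨cube_le_of_le h2 (by omega), Or.inl (sq_le_of_le h3 (by omega))⟩
  · right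
    have h1 : Borel p F X := h
    exact ⟨cube_le_of_le (gcd_borel hq1 h1.card_dvd) (by omega), Or.inr h1⟩
  all_goals right
  · obtain ⟨e⟩ := h
    have h1 : Nat.card X ≤ 60 := by
      rw [Nat.card_congr e.toEquiv, nat_card_alternatingGroup, Nat.card_fin]; decide
    have h0 : 0 < Nat.card X := Nat.card_pos
    exact ⟨cube_le_of_le ((Nat.gcd_le_right _ h0).trans h1) (by omega), Or.inl (sq_le_of_le ((Nat.gcd_le_right _ h0).trans h1) (by omega))⟩
  · obtain ⟨e⟩ := h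
    have h1 : Nat.card X ≤ 60 := by
      rw [Nat.card_congr e.toEquiv, Nat.card_perm, Nat.card_fin]; decide
    have h0 : 0 < Nat.card X := Nat.card_pos
    exact ⟨cube_le_of_le ((Nat.gcd_le_right _ h0).trans h1) (by omega), Or.inl (sq_le_of_le ((Nat.gcd_le_right _ h0).trans h1) (by omega))⟩
  · obtain ⟨e⟩ := h
    have h1 : Nat.card X ≤ 60 := by
      rw [Nat.card_congr e.toEquiv, nat_card_alternatingGroup, Nat.card_fin]; decide
    have h0 : 0 < Nat.card X := Nat.card_pos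
    exact ⟨cube_le_of_le ((Nat.gcd_le_right _ h0).trans h1) (by omega), Or.inl (sq_le_of_le ((Nat.gcd_le_right _ h0).trans h1) (by omega))⟩
  · have ha : 2 ≤ Fintype.card K := Fintype.one_lt_card
    have hdvd : Nat.card X ∣ Fintype.card K * (Fintype.card K ^ 2 - 1) := by
      rcases h with ⟨⟨e⟩⟩ | ⟨⟨e⟩⟩
      · rw [Nat.card_congr e.toEquiv]
        exact Dvd.intro_left _ (card_L (F := K))
      · rw [Nat.card_congr e.toEquiv, PSL2Basic.card_PGL2]
    have hm2 : 2 ≤ m := by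
      by_contra hlt
      have hm1 : m = 1 := by
        rcases Nat.eq_zero_or_pos m with rfl | h0
        · rw [pow_zero] at hm; omega
        · omega
      rw [hm1, pow_one] at hm
      apply hX
      apply Subgroup.eq_top_of_le_card
      have hL := card_L (F := F)
      rcases h with ⟨⟨e⟩⟩ | ⟨⟨e⟩⟩
      · have hL' := card_L (F := K)
        rw [hm] at hL'
        rw [Nat.card_congr e.toEquiv]
        exact (Nat.eq_of_mul_eq_mul_left (Nat.gcd_pos_of_pos_left _ (by norm_num)) (hL.trans hL'.symm)).le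
      · rw [Nat.card_congr e.toEquiv, PSL2Basic.card_PGL2, hm, ← hL]
        exact Nat.le_mul_of_pos_left _ (Nat.gcd_pos_of_pos_left _ (by norm_num))
    obtain ⟨h1, h2⟩ := gcd_sub ha hm2 hm hdvd
    exact ⟨h1, Or.inl h2⟩

end

/-! ### the numerical contradictions -/

section num

variable {p f q a b e d : ℕ}

theorem num_q1 (hp : 2 ≤ p) (hq : q = p ^ f) (hbig : 29823000000 < q) (h : a * b * e * d = q * (q ^ 2 - 1)) (hd : d ≤ 2)
    (he : e ≤ 2 * f) (hd0 : 0 < d) (he0 : 0 < e) (ha : Nat.gcd (q + 1) a ^ 3 ≤ 64 * q) (hb : Nat.gcd (q + 1) b ^ 3 ≤ 64 * q) : False := by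
  have h1 : q + 1 ∣ a * b * (e * d) := by
    rw [← mul_assoc, h, sq_sub]
    exact Dvd.intro_left (q * (q - 1)) (by ring)
  have h2 : q + 1 ∣ Nat.gcd (q + 1) a * Nat.gcd (q + 1) b * (e * d) := by
    have h3 : Nat.gcd (q + 1) (a * b * (e * d)) = q + 1 := Nat.gcd_eq_left h1
    rw [← h3]
    conv_rhs => rw [h3]
    exact (gcd_dvd_mul _ _ _).trans (Nat.mul_dvd_mul (gcd_dvd_mul _ _ _) (Nat.gcd_dvd_right _ _))
  have hf : 0 < f := by
    rcases Nat.eq_zero_or_pos f with rfl | h0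
    · rw [pow_zero] at hq; omega
    · exact h0
  set x := Nat.gcd (q + 1) a with hx
  set y := Nat.gcd (q + 1) b with hy
  have hx0 : 0 < x := Nat.gcd_pos_of_pos_left _ (Nat.succ_pos _)
  have hy0 : 0 < y := Nat.gcd_pos_of_pos_left _ (Nat.succ_pos _)
  have h4 : q + 1 ≤ x * y * (4 * f) := by
    refine (Nat.le_of_dvd (by positivity) h2).trans (Nat.mul_le_mul_left _ ?_)
    calc e * d ≤ (2 * f) * 2 := Nat.mul_le_mul he hd
      _ = 4 * f := by ring
  have h5 : (q + 1) ^ 3 ≤ (64 * q) * (64 * q) * (64 * f ^ 3) := by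
    calc (q + 1) ^ 3 ≤ (x * y * (4 * f)) ^ 3 := Nat.pow_le_pow_left h4 3
      _ = x ^ 3 * y ^ 3 * (64 * f ^ 3) := by ring
      _ ≤ _ := Nat.mul_le_mul_right _ (Nat.mul_le_mul ha hb)
  have h6 := le_q hp hq hbig
  have h7 : (q + 1) ^ 3 ≤ q ^ 3 := by
    calc (q + 1) ^ 3 ≤ (64 * q) * (64 * q) * (64 * f ^ 3) := h5
      _ = q ^ 2 * (262144 * f ^ 3) := by ring
      _ ≤ q ^ 2 * q := Nat.mul_le_mul_left _ h6
      _ = q ^ 3 := by ring
  have h8 : q ^ 3 < (q + 1) ^ 3 := Nat.pow_lt_pow_left (Nat.lt_succ_self q) (by norm_num)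
  omega

theorem num_q (hp : 2 ≤ p) (hq : q = p ^ f) (hbig : 29823000000 < q) (h : a * b * e * d = q * (q ^ 2 - 1)) (hd : d ≤ 2)
    (he : e ≤ 2 * f) (hd0 : 0 < d) (he0 : 0 < e) (ha : Nat.gcd q a ≤ 2) (hb : Nat.gcd q b ^ 2 ≤ q) : False := by
  have h1 : q ∣ a * b * (e * d) := by
    rw [← mul_assoc, h]
    exact dvd_mul_right _ _
  have h2 : q ∣ Nat.gcd q a * Nat.gcd q b * (e * d) := by
    have h3 : Nat.gcd q (a * b * (e * d)) = q := Nat.gcd_eq_left h1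
    rw [← h3]
    conv_rhs => rw [h3]
    exact (gcd_dvd_mul _ _ _).trans (Nat.mul_dvd_mul (gcd_dvd_mul _ _ _) (Nat.gcd_dvd_right _ _))
  have hf : 0 < f := by
    rcases Nat.eq_zero_or_pos f with rfl | h0
    · rw [pow_zero] at hq; omega
    · exact h0
  have hq0 : 0 < q := by omega
  have hx0 : 0 < Nat.gcd q a := Nat.gcd_pos_of_pos_left _ hq0
  set y := Nat.gcd q b with hy
  have hy0 : 0 < y := Nat.gcd_pos_of_pos_left _ hq0
  have h4 : q ≤ y * (8 * f) := by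
    refine (Nat.le_of_dvd (by positivity) h2).trans ?_
    calc Nat.gcd q a * y * (e * d) ≤ 2 * y * ((2 * f) * 2) := Nat.mul_le_mul (Nat.mul_le_mul_right _ ha) (Nat.mul_le_mul he hd)
      _ = y * (8 * f) := by ring
  have h5 : q ^ 2 ≤ q * (64 * f ^ 2) := by
    calc q ^ 2 ≤ (y * (8 * f)) ^ 2 := Nat.pow_le_pow_left h4 2
      _ = y ^ 2 * (64 * f ^ 2) := by ring
      _ ≤ q * (64 * f ^ 2) := Nat.mul_le_mul_right _ hb
  have h6 : q ≤ 64 * f ^ 2 := by
    rw [pow_two q] at h5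
    exact Nat.le_of_mul_le_mul_left h5 hq0
  have h7 := le_q hp hq hbig
  have h8 : f ^ 2 ≤ f ^ 3 := Nat.pow_le_pow_right hf (by norm_num)
  have h9 : 0 < f ^ 3 := by positivity
  omega

/-- the characteristic divides the other factor -/
theorem num_p (hp : 2 ≤ p) (hq : q = p ^ f) (hbig : 29823000000 < q) (h : a * b * e * d = q * (q ^ 2 - 1)) (hd : d ≤ 2)
    (he : e ≤ 2 * f) (hd0 : 0 < d) (he0 : 0 < e) (ha : Nat.gcd q a ≤ 2) : Nat.gcd q b ≠ 1 := by
  intro h1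
  refine num_q hp hq hbig h hd he hd0 he0 ha ?_
  rw [h1, one_pow]; omega

end num

end Cfsg.Agent.H370.Rg.P2
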