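import Cfsg.Agent.H370.Rg.PslTwoA
import Cfsg.Agent.H454.Reg.Tools
import Cfsg.Agent.H492.TI
import Cfsg.Agent.H96.TISylow
import Cfsg.Agent.S2602
import Cfsg.Agent.S0811

/-!
# S3691, row `PSL_2(q)`: reduction to `(D_{q+1}, Borel)` (helper370)
-/

set_option autoImplicit false

namespace Cfsg.Agent.H370.Rg.P2

open Cfsg Subgroup Cfsg.Agent.H454.Reg
open Cfsg.Agent.ClassicalGeometry

universe u

/-! ### Sylow subgroups -/

section

variable {F : Type*} [Field F] [Fintype F]

local notation "L" => Matrix.ProjectiveSpecialLinearGroup (Fin 2) F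

theorem ti_L {X : Type*} [Group X] [Finite X] (e : X ≃* L) (p : ℕ) [Fact p.Prime] [CharP F p] (P Q : Sylow p X) (x : X)
    (hP : x ∈ P) (hQ : x ∈ Q) (hx : x ≠ 1) : P = Q := by
  by_contra hne
  have h0 : ∀ P Q : Sylow p ↥(⊤ : Subgroup (Matrix.SpecialLinearGroup (Fin 2) F)), P ≠ Q →
      (P : Subgroup ↥(⊤ : Subgroup (Matrix.SpecialLinearGroup (Fin 2) F))) ⊓
        (Q : Subgroup ↥(⊤ : Subgroup (Matrix.SpecialLinearGroup (Fin 2) F))) = ⊥ := by
    intro P Q hPQ
    by_contra h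
    exact hPQ (H96.TISylow.sl_two_ti _ P Q h)
  have h1 := H492.sylow_ti_quotient p h0 ((e.symm.toMonoidHom.comp (QuotientGroup.mk' (center (Matrix.SpecialLinearGroup (Fin 2) F)))).comp
    (Subgroup.topEquiv (G := Matrix.SpecialLinearGroup (Fin 2) F)).toMonoidHom)
    ((e.symm.surjective.comp (QuotientGroup.mk'_surjective _)).comp Subgroup.topEquiv.surjective) P Q hne
  have h2 : x ∈ (P : Subgroup X) ⊓ Q := ⟨hP, hQ⟩
  rw [h1, Subgroup.mem_bot] at h2
  exact hx h2

end

/-- a Sylow subgroup of a group that embeds in `N(P)` is normal -/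
theorem normal_sylow {L Y : Type*} [Group L] [Finite L] [Group Y] [Finite Y] {p : ℕ} [Fact p.Prime] (P : Sylow p L) (φ : Y →* L)
    (hφ : Function.Injective φ) (hN : ∀ y, φ y ∈ normalizer ((P : Subgroup L) : Set L)) (S : Sylow p Y) :
    (S : Subgroup Y).Normal := by
  have h1 : (S : Subgroup Y).map φ ≤ P := by
    have h2 : IsPGroup p ((S : Subgroup Y).map φ) := S.2.map φ
    have h3 : (S : Subgroup Y).map φ ≤ normalizer ((P : Subgroup L) : Set L) := by
      rintro _ ⟨y, -, rfl⟩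
      exact hN y
    have h4 : (S : Subgroup Y).map φ ⊓ normalizer ((P : Subgroup L) : Set L) = (S : Subgroup Y).map φ ⊓ P :=
      h2.inf_normalizer_sylow P
    rw [inf_eq_left.2 h3] at h4
    rw [h4]
    exact inf_le_right
  have h2 : (S : Subgroup Y) ≤ (P : Subgroup L).comap φ := Subgroup.map_le_iff_le_comap.1 h1
  have h3 : (P : Subgroup L).comap φ = S := S.3 (P.2.comap_of_injective φ hφ) h2
  rw [← h3]
  refine ⟨fun n hn g => ?_⟩
  change φ (g * n * g⁻¹) ∈ P
  rw [map_mul, map_mul, map_inv]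
  exact (Subgroup.mem_normalizer_iff.1 (hN g) _).1 hn

/-- `p`-elements are in a normal Sylow subgroup -/
theorem mem_of_normal {Y : Type*} [Group Y] [Finite Y] {p : ℕ} [Fact p.Prime] (S : Sylow p Y) (hS : (S : Subgroup Y).Normal)
    {x : Y} {k : ℕ} (hx : x ^ p ^ k = 1) : x ∈ S := by
  have h1 : IsPGroup p (zpowers x) := by
    rintro ⟨_, m, rfl⟩
    refine ⟨k, Subtype.ext ?_⟩
    change (x ^ m) ^ p ^ k = 1
    rw [← zpow_natCast, ← zpow_mul, mul_comm, zpow_mul, zpow_natCast, hx, one_zpow]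
  obtain ⟨Q, hQ⟩ := h1.exists_le_sylow
  have := Sylow.unique_of_normal S hS
  rw [Subsingleton.elim S Q]
  exact hQ (mem_zpowers x)

section al

variable {G : Type u} [Group G] {T : Subgroup G} [hT : T.Normal]

/-! ### the automorphisms induced by `G` -/

/-- conjugation on `T ≅ L` -/
def al {M : Type*} [Group M] (e : T ≃* M) : G →* MulAut M := (MulAut.congr e).toMonoidHom.comp MulAut.conjNormal

theorem al_apply {M : Type*} [Group M] (e : T ≃* M) (g : G) (x : M) : al e g x = e (MulAut.conjNormal g (e.symm x)) := rfl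

theorem al_coe {M : Type*} [Group M] (e : T ≃* M) (t : T) : al e (t : G) = MulAut.conj (e t) := by
  ext x
  rw [al_apply, MulAut.conj_apply]
  have : MulAut.conjNormal (t : G) (e.symm x) = t * e.symm x * t⁻¹ := by
    apply Subtype.ext
    rw [MulAut.conjNormal_apply]
    rfl
  rw [this, map_mul, map_mul, map_inv, MulEquiv.apply_symm_apply]

theorem al_injective {M : Type*} [Group M] (e : T ≃* M) (hc : centralizer (T : Set G) = ⊥) : Function.Injective (al e : G →* MulAut M) := by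
  rw [injective_iff_map_eq_one]
  intro g hg
  have h1 : g ∈ centralizer (T : Set G) := by
    rw [Subgroup.mem_centralizer_iff]
    intro t ht
    have h2 : al e g (e ⟨t, ht⟩) = e ⟨t, ht⟩ := by rw [hg]; rfl
    rw [al_apply, MulEquiv.symm_apply_apply] at h2
    have h3 := congrArg Subtype.val (e.injective h2)
    rw [MulAut.conjNormal_apply] at h3
    exact (mul_inv_eq_iff_eq_mul.1 h3).symm
  rw [hc] at h1
  exact h1

end al

section stab

variable {G : Type u} [Group G] [Finite G] {T : Subgroup G} [hT : T.Normal] {p : ℕ} [Fact p.Prime]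

/-- the stabiliser in `G` of a Sylow subgroup of `T` -/
def SG (Q : Sylow p T) : Subgroup G := (MulAction.stabilizer (MulAut T) Q).comap MulAut.conjNormal

omit [Finite G] [Fact p.Prime] in
theorem mem_SG {Q : Sylow p T} {g : G} : g ∈ SG Q ↔ (MulAut.conjNormal g : MulAut T) • Q = Q := Iff.rfl

omit [Finite G] [Fact p.Prime] in
theorem SG_subgroupOf (Q : Sylow p T) : (SG Q).subgroupOf T = normalizer ((Q : Subgroup T) : Set T) := by
  ext t
  have h0 : t ∈ normalizer ((Q : Subgroup T) : Set T) ↔ t • Q = Q := Sylow.smul_eq_iff_mem_normalizer.symm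
  rw [Subgroup.mem_subgroupOf, mem_SG, h0]
  have : (MulAut.conjNormal (t : G) : MulAut T) • Q = t • Q := by
    apply Sylow.ext
    rw [Sylow.pointwise_smul_def, Sylow.smul_def]
    rfl
  rw [this]

variable {F : Type*} [Field F] [Fintype F] [CharP F p]

local notation "L" => Matrix.ProjectiveSpecialLinearGroup (Fin 2) F

theorem Plus.congr {q : ℕ} {X Y : Type*} [Group X] [Group Y] (e : X ≃* Y) (h : Plus q Y) : Plus q X := by
  obtain ⟨k, hk, ⟨h1, h2⟩ | ⟨⟨e'⟩⟩⟩ := h
  · exact ⟨k, hk, Or.inl ⟨isCyclic_of_surjective e.symm e.symm.surjective, by rw [Nat.card_congr e.toEquiv, h2]⟩⟩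
  · exact ⟨k, hk, Or.inr ⟨e.trans e'⟩⟩

omit [Fintype F] [Fact p.Prime] [CharP F p] in
theorem Borel.congr {X Y : Type*} [Group X] [Group Y] (e : X ≃* Y) (h : Borel p F Y) : Borel p F X := by
  obtain ⟨P, K, hK, ⟨e'⟩⟩ := h
  exact ⟨P, K, hK, ⟨e.trans e'⟩⟩

/-- a group with factor of type `(b)` stabilises a Sylow subgroup of the socle -/
theorem le_SG (e : T ≃* L) (Y : Subgroup G) (hB : Borel p F (Y.subgroupOf T)) (hp : p ∣ Nat.card (Y.subgroupOf T)) :
    ∃ Q : Sylow p T, Y ≤ SG Q := by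
  obtain ⟨P, K, hK, ⟨ε⟩⟩ := hB
  obtain ⟨S⟩ : Nonempty (Sylow p (Y.subgroupOf T)) := inferInstance
  have hSn := normal_sylow P (K.subtype.comp ε.toMonoidHom) (K.subtype_injective.comp ε.injective)
    (fun y => hK (ε y).2) S
  obtain ⟨x0, hx0⟩ := exists_prime_orderOf_dvd_card' p hp
  have hx1 : x0 ≠ 1 := by
    rintro rfl
    rw [orderOf_one] at hx0
    exact (Fact.out : p.Prime).ne_one hx0.symm
  obtain ⟨Q, hQ⟩ := (S.2.map (Y.subgroupOf T).subtype).exists_le_sylow
  refine ⟨Q, fun y hy => ?_⟩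
  rw [mem_SG]
  set z : T := MulAut.conjNormal y (x0 : T) with hz
  have hzG : (z : G) = y * ((x0 : T) : G) * y⁻¹ := MulAut.conjNormal_apply y _
  have hzY : z ∈ Y.subgroupOf T := by
    rw [Subgroup.mem_subgroupOf, hzG]
    exact Y.mul_mem (Y.mul_mem hy x0.2) (Y.inv_mem hy)
  have hz1 : z ≠ 1 := by
    intro h1
    apply hx1
    apply Subtype.ext
    exact (MulEquiv.map_eq_one_iff (MulAut.conjNormal y : MulAut T)).1 h1
  have hzp : z ^ p = 1 := by
    have h2 : (x0 : T) ^ p = 1 := by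
      have h3 : x0 ^ p = 1 := by rw [← hx0]; exact pow_orderOf_eq_one x0
      exact congrArg Subtype.val h3
    rw [hz, ← map_pow, h2, map_one]
  have hzS : (⟨z, hzY⟩ : Y.subgroupOf T) ∈ S := mem_of_normal S hSn (k := 1) (by
    rw [pow_one]; exact Subtype.ext hzp)
  have hx0S : x0 ∈ S := mem_of_normal S hSn (k := 1) (by
    rw [pow_one, ← hx0]; exact pow_orderOf_eq_one x0)
  refine ti_L e p _ _ z ?_ (hQ ⟨_, hzS, rfl⟩) hz1
  have h5 : (x0 : T) ∈ Q := hQ ⟨_, hx0S, rfl⟩
  exact Subgroup.smul_mem_pointwise_smul (x0 : T) (MulAut.conjNormal y : MulAut T) (Q : Subgroup T) h5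

omit [Finite G] [CharP F p] in
/-- `|G : T|` divides `d f` -/
theorem index_dvd (e : T ≃* L) (hc : centralizer (T : Set G) = ⊥) {f : ℕ} (hf : 1 ≤ f) (hF : Fintype.card F = p ^ f)
    (h4 : 4 ≤ Fintype.card F) : T.index ∣ Nat.gcd 2 (Fintype.card F - 1) * f := by
  have h1 : Nat.card G ∣ Nat.card (MulAut L) := Subgroup.card_dvd_of_injective (al e) (al_injective e hc)
  rw [Cfsg.Agent.H436.TT.card_mulAut p f hF hf h4, ← T.card_mul_index, Nat.card_congr e.toEquiv, mul_comm] at h1
  exact Nat.dvd_of_mul_dvd_mul_right Nat.card_pos h1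

end stab

/-! ### the reduction -/

section red

variable {G : Type u} [Group G] [Finite G] {T X Y : Subgroup G} {F : Type*} [Field F] [Fintype F] {p f : ℕ}

local notation "L" => Matrix.ProjectiveSpecialLinearGroup (Fin 2) F

theorem dickson_T [Fact p.Prime] [CharP F p] (hbig : 29823000000 < Fintype.card F) (e : T ≃* L) (X : Subgroup G)
    (hX : X.subgroupOf T ≠ ⊤) :
    Plus (Fintype.card F) (X.subgroupOf T) ∨
    (Nat.gcd (Fintype.card F + 1) (Nat.card (X.subgroupOf T)) ^ 3 ≤ 64 * Fintype.card F ∧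
      (Nat.gcd (Fintype.card F) (Nat.card (X.subgroupOf T)) ^ 2 ≤ Fintype.card F ∨ Borel p F (X.subgroupOf T))) := by
  have hc : Nat.card ((X.subgroupOf T).map e.toMonoidHom) = Nat.card (X.subgroupOf T) := Subgroup.card_map_of_injective e.injective
  let ε : X.subgroupOf T ≃* (X.subgroupOf T).map e.toMonoidHom := (X.subgroupOf T).equivMapOfInjective e.toMonoidHom e.injective
  rcases dickson (F := F) p hbig ((X.subgroupOf T).map e.toMonoidHom) (by
    intro h
    apply hX
    apply Subgroup.eq_top_of_card_eq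
    rw [← hc, h, Subgroup.card_top, Nat.card_congr e.toEquiv]) with h | ⟨h1, h2 | h2⟩
  · exact Or.inl (h.congr ε)
  · rw [hc] at h1 h2
    exact Or.inr ⟨h1, Or.inl h2⟩
  · rw [hc] at h1
    exact Or.inr ⟨h1, Or.inr (h2.congr ε)⟩

theorem red_half [Fact p.Prime] [CharP F p] (h : Fac T X Y) (hF : Fintype.card F = p ^ f) (hbig : 29823000000 < Fintype.card F)
    (e : T ≃* L) (hX : Plus (Fintype.card F) (X.subgroupOf T)) : p ∣ Nat.card (Y.subgroupOf T) ∧ Borel p F (Y.subgroupOf T) := by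
  have hTn := h.normal
  have hp : p.Prime := Fact.out
  have hf : 1 ≤ f := by
    rcases Nat.eq_zero_or_pos f with rfl | h0
    · rw [pow_zero] at hF; omega
    · exact h0
  have hq1 : 1 ≤ Fintype.card F := by omega
  obtain ⟨c, hc1, -, hc⟩ := h.card0
  have hd : Nat.gcd 2 (Fintype.card F - 1) ≤ 2 := Nat.gcd_le_left _ (by norm_num)
  have hd0 : 0 < Nat.gcd 2 (Fintype.card F - 1) := Nat.gcd_pos_of_pos_left _ (by norm_num)
  have hcdvd := hc1.trans (index_dvd e h.cent hf hF (by omega))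
  have hcle : c ≤ 2 * f := (Nat.le_of_dvd (Nat.mul_pos hd0 hf) hcdvd).trans (Nat.mul_le_mul_right _ hd)
  have hc0 : 0 < c := Nat.pos_of_dvd_of_pos hcdvd (Nat.mul_pos hd0 hf)
  have heq : Nat.card (X.subgroupOf T) * Nat.card (Y.subgroupOf T) * c * Nat.gcd 2 (Fintype.card F - 1) =
      Fintype.card F * (Fintype.card F ^ 2 - 1) := by
    rw [hc, Nat.card_congr e.toEquiv, mul_comm]
    exact card_L
  have ha := gcd_plus (hX.card_dvd' hq1)
  have hne := num_p hp.two_le hF hbig heq hd hcle hd0 hc0 ha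
  constructor
  · by_contra hdvd
    apply hne
    rw [hF]
    exact Nat.Coprime.pow_left f ((Nat.Prime.coprime_iff_not_dvd hp).2 hdvd)
  · rcases dickson_T (p := p) hbig e Y h.ne_top_right with h1 | ⟨-, h1 | h1⟩
    · exact (num_q hp.two_le hF hbig heq hd hcle hd0 hc0 ha (by
        have h2 := gcd_plus (h1.card_dvd' hq1)
        exact sq_le_of_le h2 (by omega))).elim
    · exact (num_q hp.two_le hF hbig heq hd hcle hd0 hc0 ha h1).elim
    · exact h1

/-- **the reduction** -/
theorem red [Fact p.Prime] [CharP F p] (h : Fac T X Y) (hF : Fintype.card F = p ^ f) (hbig : 29823000000 < Fintype.card F)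
    (e : T ≃* L) : (Plus (Fintype.card F) (X.subgroupOf T) ∧ p ∣ Nat.card (Y.subgroupOf T) ∧ Borel p F (Y.subgroupOf T)) ∨
      (Plus (Fintype.card F) (Y.subgroupOf T) ∧ p ∣ Nat.card (X.subgroupOf T) ∧ Borel p F (X.subgroupOf T)) := by
  have hTn := h.normal
  have hp : p.Prime := Fact.out
  by_cases hX : Plus (Fintype.card F) (X.subgroupOf T)
  · exact Or.inl ⟨hX, red_half h hF hbig e hX⟩
  by_cases hY : Plus (Fintype.card F) (Y.subgroupOf T)
  · exact Or.inr ⟨hY, red_half h.symm hF hbig e hY⟩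
  exfalso
  have hf : 1 ≤ f := by
    rcases Nat.eq_zero_or_pos f with rfl | h0
    · rw [pow_zero] at hF; omega
    · exact h0
  obtain ⟨c, hc1, -, hc⟩ := h.card0
  have hd : Nat.gcd 2 (Fintype.card F - 1) ≤ 2 := Nat.gcd_le_left _ (by norm_num)
  have hd0 : 0 < Nat.gcd 2 (Fintype.card F - 1) := Nat.gcd_pos_of_pos_left _ (by norm_num)
  have hcdvd := hc1.trans (index_dvd e h.cent hf hF (by omega))
  have hcle : c ≤ 2 * f := (Nat.le_of_dvd (Nat.mul_pos hd0 hf) hcdvd).trans (Nat.mul_le_mul_right _ hd)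
  have hc0 : 0 < c := Nat.pos_of_dvd_of_pos hcdvd (Nat.mul_pos hd0 hf)
  have heq : Nat.card (X.subgroupOf T) * Nat.card (Y.subgroupOf T) * c * Nat.gcd 2 (Fintype.card F - 1) =
      Fintype.card F * (Fintype.card F ^ 2 - 1) := by
    rw [hc, Nat.card_congr e.toEquiv, mul_comm]
    exact card_L
  have h1 := (dickson_T (p := p) hbig e X h.ne_top_left).resolve_left hX
  have h2 := (dickson_T (p := p) hbig e Y h.ne_top_right).resolve_left hY
  exact num_q1 hp.two_le hF hbig heq hd hcle hd0 hc0 h1.1 h2.1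

end red

end Cfsg.Agent.H370.Rg.P2
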