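import Cfsg.Agent.H370.Rg.PslTwoB
import Cfsg.Agent.S0811

/-!
# S3691, row `PSL_2(q)`: the dihedral factor of order `2 (q + 1) / d` (helper370)
-/

set_option autoImplicit false

namespace Cfsg.Agent.H370.Rg.P2

open Cfsg Subgroup Cfsg.Agent.H454.Reg
open Cfsg.Agent.ClassicalGeometry

universe u

/-! ### elements of order `m > 2` of cyclic and dihedral groups -/

theorem uniq_of_mem {X : Type*} [Group X] [Finite X] {g x y : X} {m : ℕ} (hx : x ∈ zpowers g) (hy : y ∈ zpowers g)
    (ox : orderOf x = m) (oy : orderOf y = m) : y ∈ zpowers x := by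
  have hc : IsCyclic (zpowers g) := inferInstance
  have h1 := mem_zpowers_of_pow_orderOf (⟨x, hx⟩ : zpowers g) ⟨y, hy⟩ (by
    have h2 : orderOf (⟨x, hx⟩ : zpowers g) = m := by rw [← ox, ← Subgroup.orderOf_coe]
    rw [h2]
    apply Subtype.ext
    rw [SubmonoidClass.coe_pow, ← oy]
    exact pow_orderOf_eq_one y)
  obtain ⟨k, hk⟩ := h1
  exact ⟨k, congrArg Subtype.val hk⟩

theorem dih_uniq {X : Type*} [Group X] [Finite X] {k m : ℕ} (e : X ≃* DihedralGroup k) (hm : 2 < m) {x y : X}
    (ox : orderOf x = m) (oy : orderOf y = m) : y ∈ zpowers x := by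
  have key : ∀ z : X, orderOf z = m → z ∈ zpowers (e.symm (DihedralGroup.r 1)) := by
    intro z hz
    have h1 : orderOf (e z) = m := by rw [MulEquiv.orderOf_eq, hz]
    obtain ⟨w, hw⟩ : ∃ w, e z = w := ⟨_, rfl⟩
    rw [hw] at h1
    rcases w with i | i
    · refine ⟨(ZMod.cast i : ℤ), ?_⟩
      apply e.injective
      change e (e.symm (DihedralGroup.r 1) ^ (ZMod.cast i : ℤ)) = e z
      rw [map_zpow, MulEquiv.apply_symm_apply, hw, DihedralGroup.r_one_zpow, ZMod.intCast_zmod_cast]
    · rw [DihedralGroup.orderOf_sr] at h1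
      omega
  exact uniq_of_mem (key x ox) (key y oy) ox oy

theorem Plus.uniq {q m : ℕ} {X : Type*} [Group X] [Finite X] (h : Plus q X) (hm : 2 < m) {x y : X}
    (ox : orderOf x = m) (oy : orderOf y = m) : y ∈ zpowers x := by
  obtain ⟨k, hk, ⟨h1, h2⟩ | ⟨⟨e⟩⟩⟩ := h
  · obtain ⟨g, hg⟩ := h1.exists_generator
    exact uniq_of_mem (hg x) (hg y) ox oy
  · exact dih_uniq e hm ox oy

theorem Plus.exists_order {q : ℕ} {X : Type*} [Group X] [Finite X] (h : Plus q X) (hX : 5 ≤ Nat.card X) :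
    ∃ m k : ℕ, (m = 4 ∨ (m.Prime ∧ Odd m)) ∧ m ∣ k ∧ k ∣ (q + 1) / Nat.gcd 2 (q - 1) ∧ ∃ x : X, orderOf x = m := by
  obtain ⟨k, hk, h⟩ := h
  have hk3 : 2 < k := by
    rcases h with ⟨-, h2⟩ | ⟨⟨e⟩⟩
    · omega
    · rw [Nat.card_congr e.toEquiv, DihedralGroup.nat_card] at hX
      omega
  obtain ⟨g, hg⟩ : ∃ g : X, orderOf g = k := by
    rcases h with ⟨h1, h2⟩ | ⟨⟨e⟩⟩
    · obtain ⟨g, hg⟩ := h1.exists_generator
      exact ⟨g, by rw [orderOf_eq_card_of_forall_mem_zpowers hg, h2]⟩
    · exact ⟨e.symm (DihedralGroup.r 1), by rw [MulEquiv.orderOf_eq, DihedralGroup.orderOf_r_one]⟩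
  have key : ∀ m, m ∣ k → ∃ x : X, orderOf x = m := by
    rintro m ⟨c, hc⟩
    have hc0 : c ≠ 0 := by rintro rfl; omega
    refine ⟨g ^ c, ?_⟩
    rw [orderOf_pow_of_dvd hc0 (by rw [hg, hc]; exact dvd_mul_left _ _), hg, hc]
    exact Nat.mul_div_cancel _ (Nat.pos_of_ne_zero hc0)
  rcases Nat.four_dvd_or_exists_odd_prime_and_dvd_of_two_lt hk3 with h4 | ⟨r, hr, hrk, hro⟩
  · exact ⟨4, k, Or.inl rfl, h4, hk, key 4 h4⟩
  · exact ⟨r, k, Or.inr ⟨hr, hro⟩, hrk, hk, key r hrk⟩

/-- an element of prime power order is conjugate into a subgroup of index prime to it -/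
theorem exists_conj_mem {X : Type*} [Group X] [Finite X] (D : Subgroup X) {r : ℕ} [Fact r.Prime] (hr : ¬ r ∣ D.index) {x : X} {j : ℕ}
    (hx : x ^ r ^ j = 1) : ∃ g : X, g⁻¹ * x * g ∈ D := by
  have h1 : IsPGroup r (zpowers x) := by
    rintro ⟨_, m, rfl⟩
    refine ⟨j, Subtype.ext ?_⟩
    change (x ^ m) ^ r ^ j = 1
    rw [← zpow_natCast, ← zpow_mul, mul_comm, zpow_mul, zpow_natCast, hx, one_zpow]
  obtain ⟨z, hz⟩ := h1.nonempty_fixed_point_of_prime_not_dvd_card (X ⧸ D) hr
  obtain ⟨g, rfl⟩ := QuotientGroup.mk_surjective z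
  refine ⟨g, ?_⟩
  have h2 := hz ⟨x, mem_zpowers x⟩
  have h3 : ((x * g : X) : X ⧸ D) = (g : X ⧸ D) := h2
  rw [eq_comm, QuotientGroup.eq] at h3
  rwa [← mul_assoc] at h3

/-- a proper normaliser in a simple group -/
theorem normalizer_zpowers_ne_top {T : Type*} [Group T] [hs : IsSimpleGroup T] (hna : ¬ IsMulCommutative T) {x : T} (hx : x ≠ 1) :
    normalizer ((zpowers x : Subgroup T) : Set T) ≠ ⊤ := by
  intro h
  have hn : (zpowers x).Normal := Subgroup.normalizer_eq_top_iff.1 h
  rcases hn.eq_bot_or_eq_top with h1 | h1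
  · exact hx (zpowers_eq_bot.1 h1)
  · apply hna
    refine ⟨⟨fun a b => ?_⟩⟩
    have ha : a ∈ zpowers x := by rw [h1]; trivial
    have hb : b ∈ zpowers x := by rw [h1]; trivial
    obtain ⟨m, hm⟩ := ha
    obtain ⟨n, hn⟩ := hb
    simp only at hm hn
    rw [← hm, ← hn, ← zpow_add, ← zpow_add, add_comm]

/-- `D ≤ N(⟨x⟩)` if the elements of order `|x|` of `D` are powers of `x` -/
theorem le_normalizer_zpowers {X : Type*} [Group X] [Finite X] {D : Subgroup X} {x : X}
    (h : ∀ y ∈ D, y * x * y⁻¹ ∈ zpowers x) : D ≤ normalizer ((zpowers x : Subgroup X) : Set X) := by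
  have key : ∀ y ∈ D, ∀ z ∈ zpowers x, y * z * y⁻¹ ∈ zpowers x := by
    rintro y hy _ ⟨k, rfl⟩
    have h1 : y * x ^ k * y⁻¹ = (y * x * y⁻¹) ^ k := (conj_zpow).symm
    simp only [h1]
    exact Subgroup.zpow_mem _ (h y hy) k
  intro y hy
  rw [Subgroup.mem_normalizer_iff]
  intro z
  refine ⟨key y hy z, fun hz => ?_⟩
  have h1 := key y⁻¹ (D.inv_mem hy) _ hz
  have h2 : y⁻¹ * (y * z * y⁻¹) * y⁻¹⁻¹ = z := by group
  rwa [h2] at h1

section

variable {G : Type u} [Group G] [Finite G] {T H B : Subgroup G} {F : Type*} [Field F] [Fintype F] {p f : ℕ}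

local notation "L" => Matrix.ProjectiveSpecialLinearGroup (Fin 2) F

theorem gcd_mul_div {q : ℕ} (hq : 1 ≤ q) : Nat.gcd 2 (q - 1) * ((q + 1) / Nat.gcd 2 (q - 1)) = q + 1 := by
  apply Nat.mul_div_cancel'
  rcases Nat.even_or_odd q with h | h
  · obtain ⟨a, ha⟩ := h
    have : Nat.gcd 2 (q - 1) = 1 := by
      rw [← Nat.coprime_iff_gcd_eq_one, Nat.coprime_two_left, Nat.odd_iff]; omega
    rw [this]; exact one_dvd _
  · refine (Nat.gcd_dvd_left _ _).trans ?_
    rw [← even_iff_two_dvd]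
    exact h.add_one

theorem eq_of_maximal (hex : Ex T H B) {q m : ℕ} (hP : Plus q (H.subgroupOf T)) (hm : 2 < m) {x : T} (hx : x ∈ H.subgroupOf T)
    (ox : orderOf x = m) : H.subgroupOf T = normalizer ((zpowers x : Subgroup T) : Set T) := by
  have hTn := hex.normal
  have hTs := hex.simple
  have hx1 : x ≠ 1 := by
    rintro rfl
    rw [orderOf_one] at ox
    omega
  -- the normaliser in `G`
  have hle : H ≤ normalizer ((zpowers (x : G) : Subgroup G) : Set G) := by
    apply le_normalizer_zpowers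
    intro y hy
    set z : T := MulAut.conjNormal y x with hz
    have hzG : (z : G) = y * (x : G) * y⁻¹ := MulAut.conjNormal_apply y _
    have hzH : z ∈ H.subgroupOf T := by
      rw [Subgroup.mem_subgroupOf, hzG]
      exact H.mul_mem (H.mul_mem hy hx) (H.inv_mem hy)
    have oz : orderOf (⟨z, hzH⟩ : H.subgroupOf T) = m := by
      rw [Subgroup.orderOf_mk, hz, MulEquiv.orderOf_eq, ox]
    have ox' : orderOf (⟨x, hx⟩ : H.subgroupOf T) = m := by
      rw [Subgroup.orderOf_mk, ox]
    obtain ⟨k, hk⟩ := hP.uniq hm ox' oz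
    refine ⟨k, ?_⟩
    rw [← hzG]
    exact congrArg (fun w : H.subgroupOf T => ((w : T) : G)) hk
  have hne : normalizer ((zpowers (x : G) : Subgroup G) : Set G) ≠ ⊤ := by
    intro htop
    apply normalizer_zpowers_ne_top hex.nonab hx1
    rw [eq_top_iff]
    intro t _
    rw [Subgroup.mem_normalizer_iff]
    intro z
    have h1 : (t : G) ∈ normalizer ((zpowers (x : G) : Subgroup G) : Set G) := by rw [htop]; trivial
    have h2 := Subgroup.mem_normalizer_iff.1 h1 (z : G)
    have h3 : ∀ w : T, w ∈ zpowers x ↔ (w : G) ∈ zpowers (x : G) := by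
      intro w
      constructor
      · rintro ⟨k, rfl⟩
        exact ⟨k, rfl⟩
      · rintro ⟨k, hk⟩
        exact ⟨k, Subtype.ext hk⟩
    rw [h3, h3]
    exact h2
  have hH : normalizer ((zpowers (x : G) : Subgroup G) : Set G) = H := by
    by_contra hne'
    exact hne (hex.max.2 _ (lt_of_le_of_ne hle (Ne.symm hne')))
  have h3 : ∀ w : T, w ∈ zpowers x ↔ (w : G) ∈ zpowers (x : G) := by
    intro w
    constructor
    · rintro ⟨k, rfl⟩
      exact ⟨k, rfl⟩
    · rintro ⟨k, hk⟩
      exact ⟨k, Subtype.ext hk⟩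
  ext t
  rw [Subgroup.mem_subgroupOf, ← hH, Subgroup.mem_normalizer_iff, Subgroup.mem_normalizer_iff]
  constructor
  · intro h z
    have h2 := h (z : G)
    rw [h3, h3]
    exact h2
  · intro h z
    constructor
    · rintro ⟨k, rfl⟩
      have h4 := (h (x ^ k)).1 ⟨k, rfl⟩
      rw [h3] at h4
      exact h4
    · rintro ⟨k, hk⟩
      have hzT : z ∈ T := by
        have : z = (t : G)⁻¹ * ((x : G) ^ k) * t := by
          simp only at hk
          rw [hk]; group
        rw [this]
        exact T.mul_mem (T.mul_mem (T.inv_mem t.2) (T.zpow_mem x.2 k)) t.2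
      have h4 := (h ⟨z, hzT⟩).2 ⟨k, Subtype.ext hk⟩
      rw [h3] at h4
      exact h4

/-- the index of `D_{2 (q + 1) / d}` is prime to the prime divisors of `(q + 1) / d` -/
theorem not_dvd_index {q N n i r : ℕ} (hq : 3 ≤ q) (hN : Nat.gcd 2 (q - 1) * N = q + 1) (hn : Nat.gcd 2 (q - 1) * n = q * (q ^ 2 - 1))
    (hi : 2 * N * i = n) (hr : r.Prime) (h : (r = 2 ∧ 4 ∣ N) ∨ (Odd r ∧ r ∣ N)) : ¬ r ∣ i := by
  have hN0 : 0 < N := by
    rcases Nat.eq_zero_or_pos N with rfl | h0
    · omega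
    · exact h0
  have h1 : 2 * i = q * (q - 1) := by
    have h2 : (Nat.gcd 2 (q - 1) * N) * (2 * i) = (q + 1) * (q * (q - 1)) := by
      calc (Nat.gcd 2 (q - 1) * N) * (2 * i) = Nat.gcd 2 (q - 1) * (2 * N * i) := by ring
        _ = q * (q ^ 2 - 1) := by rw [hi, hn]
        _ = (q + 1) * (q * (q - 1)) := by rw [sq_sub]; ring
    rw [hN] at h2
    exact Nat.eq_of_mul_eq_mul_left (Nat.succ_pos q) h2
  intro hri
  rcases h with ⟨rfl, h4⟩ | ⟨ho, hrN⟩
  · -- `r = 2`
    have hq4 : 4 ∣ q + 1 := by rw [← hN]; exact h4.mul_left _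
    have hqo : ¬ 2 ∣ q := by omega
    have hd : Nat.gcd 2 (q - 1) = 2 := by
      apply Nat.gcd_eq_left
      omega
    rw [hd] at hN
    have h5 : 8 ∣ q + 1 := by
      obtain ⟨c, hc⟩ := h4
      exact ⟨c, by rw [← hN, hc]; ring⟩
    obtain ⟨c, hc⟩ := hri
    have h6 : 4 ∣ q * (q - 1) := ⟨c, by rw [← h1, hc]; ring⟩
    have h7 : Nat.Coprime 4 q := by
      have : Nat.Coprime (2 ^ 2) q := Nat.Coprime.pow_left 2 ((Nat.Prime.coprime_iff_not_dvd Nat.prime_two).2 hqo)
      exact this
    have h8 : 4 ∣ q - 1 := h7.dvd_of_dvd_mul_left h6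
    omega
  · have h2 : r ∣ q * (q - 1) := by rw [← h1]; exact hri.mul_left 2
    have hrq : r ∣ q + 1 := by rw [← hN]; exact hrN.mul_left _
    have hr2 : ¬ r ∣ 2 := by
      intro h
      have := (Nat.prime_dvd_prime_iff_eq hr Nat.prime_two).1 h
      subst this
      exact absurd ho (by decide)
    rcases (hr.dvd_mul).1 h2 with h3 | h3
    · have h4 := (Nat.dvd_add_right h3).1 hrq
      exact hr.one_lt.ne' (Nat.dvd_one.1 h4)
    · have h4 := Nat.dvd_sub hrq h3
      have h5 : q + 1 - (q - 1) = 2 := by omega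
      rw [h5] at h4
      exact hr2 h4

/-- **the order of the dihedral factor** -/
theorem card_dih (hex : Ex T H B) (hbig : 29823000000 < Fintype.card F) (e : T ≃* L)
    (hP : Plus (Fintype.card F) (H.subgroupOf T)) (h5 : 5 ≤ Nat.card (H.subgroupOf T)) :
    Nat.card (H.subgroupOf T) = 2 * ((Fintype.card F + 1) / Nat.gcd 2 (Fintype.card F - 1)) := by
  have hTn := hex.normal
  have hTs := hex.simple
  set q := Fintype.card F with hq
  have hq1 : 1 ≤ q := by omega
  set N := (q + 1) / Nat.gcd 2 (q - 1) with hN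
  have hNd : Nat.gcd 2 (q - 1) * N = q + 1 := gcd_mul_div hq1
  have hd : Nat.gcd 2 (q - 1) ≤ 2 := Nat.gcd_le_left _ (by norm_num)
  have hN3 : 3 < N := by
    by_contra hcon
    have : Nat.gcd 2 (q - 1) * N ≤ 2 * 3 := Nat.mul_le_mul hd (by omega)
    omega
  -- the maximal dihedral group
  obtain ⟨D0, hD0, ⟨ε0⟩⟩ := Cfsg.Agent.S0811.result (F := F) (q := q) rfl (by
    simp only [Finset.mem_insert, Finset.mem_singleton, not_or]
    refine ⟨?_, ?_, ?_⟩ <;> omega)
  let D1 : Subgroup T := D0.comap e.toMonoidHom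
  have hD1c : Nat.card D1 = 2 * N := by
    have h1 : D1.map e.toMonoidHom = D0 := Subgroup.map_comap_eq_self_of_surjective e.surjective D0
    have h2 : Nat.card (D1.map e.toMonoidHom) = Nat.card D1 := Subgroup.card_map_of_injective e.injective
    rw [← h2, h1, Nat.card_congr ε0.toEquiv, DihedralGroup.nat_card]
  have hD1m : IsCoatom D1 := by
    refine ⟨?_, ?_⟩
    · intro h
      apply hD0.1
      have h1 : D1.map e.toMonoidHom = D0 := Subgroup.map_comap_eq_self_of_surjective e.surjective D0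
      rw [← h1, h]
      exact Subgroup.map_top_of_surjective _ e.surjective
    · intro M hM
      have h1 : D0 < M.map e.toMonoidHom := by
        have h2 : D1.map e.toMonoidHom = D0 := Subgroup.map_comap_eq_self_of_surjective e.surjective D0
        rw [← h2]
        exact (Subgroup.map_lt_map_iff_of_injective e.injective).2 hM
      have h2 := hD0.2 _ h1
      have h3 : M = (M.map e.toMonoidHom).comap e.toMonoidHom := (Subgroup.comap_map_eq_self_of_injective e.injective M).symm
      rw [h3, h2, Subgroup.comap_top]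
  let ε1 : D1 ≃* DihedralGroup N :=
    ((D1.equivMapOfInjective e.toMonoidHom e.injective).trans
      (MulEquiv.subgroupCongr (Subgroup.map_comap_eq_self_of_surjective e.surjective D0))).trans ε0
  -- the element
  obtain ⟨m, k, hm, hmk, hk, x, hx⟩ := hP.exists_order h5
  have hm2 : 2 < m := by
    rcases hm with rfl | ⟨h1, h2⟩
    · norm_num
    · have := h1.two_le
      rcases Nat.lt_or_ge 2 m with h3 | h3
      · exact h3
      · have : m = 2 := by omega
        subst this
        exact absurd h2 (by decide)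
  have hx' : orderOf (x : T) = m := by rw [Subgroup.orderOf_coe, hx]
  have hmax := eq_of_maximal hex hP hm2 x.2 hx'
  -- conjugate into `D1`
  obtain ⟨r, j, hr, hrj, hri⟩ : ∃ r j : ℕ, r.Prime ∧ m = r ^ j ∧ ¬ r ∣ D1.index := by
    have hidx : 2 * N * D1.index = Nat.card T := by rw [← hD1c]; exact D1.card_mul_index
    have hcT : Nat.gcd 2 (q - 1) * Nat.card T = q * (q ^ 2 - 1) := by
      rw [Nat.card_congr e.toEquiv]; exact card_L
    rcases hm with rfl | ⟨h1, h2⟩
    · exact ⟨2, 2, Nat.prime_two, by norm_num,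
        not_dvd_index (by omega) hNd hcT hidx Nat.prime_two (Or.inl ⟨rfl, hmk.trans hk⟩)⟩
    · exact ⟨m, 1, h1, (pow_one m).symm,
        not_dvd_index (by omega) hNd hcT hidx h1 (Or.inr ⟨h2, hmk.trans hk⟩)⟩
  have : Fact r.Prime := ⟨hr⟩
  obtain ⟨g, hg⟩ := exists_conj_mem D1 hri (x := (x : T)) (j := j) (by
    rw [← hrj, ← hx']; exact pow_orderOf_eq_one _)
  let D : Subgroup T := D1.map (MulAut.conj g).toMonoidHom
  have hDc : Nat.card D = 2 * N := by
    rw [← hD1c]; exact Subgroup.card_map_of_injective (MulAut.conj g).injective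
  have hDle : D ≤ normalizer ((zpowers (x : T) : Subgroup T) : Set T) := by
    apply le_normalizer_zpowers
    intro y hy
    have hxD : (x : T) ∈ D := ⟨_, hg, by simp [mul_assoc]⟩
    have hyD : y * (x : T) * y⁻¹ ∈ D := D.mul_mem (D.mul_mem hy hxD) (D.inv_mem hy)
    let εD : D ≃* DihedralGroup N := (D1.equivMapOfInjective (MulAut.conj g).toMonoidHom (MulAut.conj g).injective).symm.trans ε1
    have h1 := dih_uniq εD hm2 (x := ⟨(x : T), hxD⟩) (y := ⟨_, hyD⟩) (by rw [Subgroup.orderOf_mk, hx']) (by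
      rw [Subgroup.orderOf_mk, ← hx']
      exact orderOf_injective (MulAut.conj y).toMonoidHom (MulAut.conj y).injective (x : T))
    obtain ⟨c, hc⟩ := h1
    exact ⟨c, congrArg Subtype.val hc⟩
  have hDm : IsCoatom D := by
    refine ⟨?_, ?_⟩
    · intro h
      apply hD1m.1
      apply Subgroup.eq_top_of_card_eq
      rw [hD1c, ← hDc, h, Subgroup.card_top]
    · intro M hM
      have h1 : D1 < M.comap (MulAut.conj g).toMonoidHom := by
        have h2 : D1 = D.comap (MulAut.conj g).toMonoidHom :=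
          (Subgroup.comap_map_eq_self_of_injective (MulAut.conj g).injective D1).symm
        rw [h2]
        exact (Subgroup.comap_lt_comap_of_surjective (MulAut.conj g).surjective).2 hM
      have h2 := hD1m.2 _ h1
      have h3 : M = (M.comap (MulAut.conj g).toMonoidHom).map (MulAut.conj g).toMonoidHom :=
        (Subgroup.map_comap_eq_self_of_surjective (MulAut.conj g).surjective M).symm
      rw [h3, h2]
      exact Subgroup.map_top_of_surjective _ (MulAut.conj g).surjective
  have hx1 : (x : T) ≠ 1 := by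
    intro h1
    rw [h1, orderOf_one] at hx'
    omega
  have hDeq : normalizer ((zpowers (x : T) : Subgroup T) : Set T) = D := by
    by_contra hne'
    exact normalizer_zpowers_ne_top hex.nonab hx1 (hDm.2 _ (lt_of_le_of_ne hDle (Ne.symm hne')))
  rw [hmax, hDeq, hDc]

/-- the order of `SG Q` -/
theorem card_SG_le [Fact p.Prime] [CharP F p] [T.Normal] (e : T ≃* L) (hc : centralizer (T : Set G) = ⊥) (hf : 1 ≤ f)
    (hF : Fintype.card F = p ^ f) (h4 : 4 ≤ Fintype.card F) (Q : Sylow p T) :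
    Nat.card (SG Q) ≤ Fintype.card F * (Fintype.card F - 1) * f := by
  have h1 := card_subgroupOf_mul T (SG Q)
  have h2 : Nat.card ((SG Q).map (QuotientGroup.mk' T)) ≤ Nat.gcd 2 (Fintype.card F - 1) * f := by
    have h3 : Nat.card ((SG Q).map (QuotientGroup.mk' T)) ∣ Nat.card (G ⧸ T) := Subgroup.card_subgroup_dvd_card _
    exact Nat.le_of_dvd (Nat.mul_pos (Nat.gcd_pos_of_pos_left _ (by norm_num)) hf) (h3.trans (index_dvd e hc hf hF h4))
  rw [← h1]
  have h5 := card_normalizer p (Q.mapSurjective (f := e.toMonoidHom) e.surjective)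
  have h6 : Nat.card ((SG Q).subgroupOf T) =
      Nat.card (normalizer (((Q.mapSurjective (f := e.toMonoidHom) e.surjective : Sylow p L) : Subgroup L) : Set L)) := by
    rw [SG_subgroupOf]
    have h7 : (normalizer ((Q : Subgroup T) : Set T)).map e.toMonoidHom =
        normalizer (((Q.mapSurjective (f := e.toMonoidHom) e.surjective : Sylow p L) : Subgroup L) : Set L) :=
      Subgroup.map_equiv_normalizer_eq (Q : Subgroup T) e
    rw [← h7]
    exact (Subgroup.card_map_of_injective (f := e.toMonoidHom) e.injective).symm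
  rw [h6]
  calc _ ≤ Nat.card (normalizer (((Q.mapSurjective (f := e.toMonoidHom) e.surjective : Sylow p L) : Subgroup L) : Set L)) *
        (Nat.gcd 2 (Fintype.card F - 1) * f) := Nat.mul_le_mul_left _ h2
    _ = Nat.gcd 2 (Fintype.card F - 1) * Nat.card (normalizer (((Q.mapSurjective (f := e.toMonoidHom) e.surjective : Sylow p L) :
        Subgroup L) : Set L)) * f := by ring
    _ = _ := by rw [h5]

/-- the orders in the dihedral case -/
theorem cards_dih [Fact p.Prime] [CharP F p] (hex : Ex T H B) (hbig : 29823000000 < Fintype.card F) (e : T ≃* L)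
    (hF : Fintype.card F = p ^ f) [hTn : T.Normal]
    (hP : Plus (Fintype.card F) (H.subgroupOf T)) {Q : Sylow p T} (hQ : B ≤ SG Q) :
    2 * Nat.card B = Fintype.card F * (Fintype.card F - 1) ∧ ∃ x ∈ H.subgroupOf T, orderOf x = 2 := by
  have hp : p.Prime := Fact.out
  have hf : 1 ≤ f := by
    rcases Nat.eq_zero_or_pos f with rfl | h0
    · rw [pow_zero] at hF; omega
    · exact h0
  have hcT : Nat.gcd 2 (Fintype.card F - 1) * Nat.card T = Fintype.card F * (Fintype.card F ^ 2 - 1) := by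
    rw [Nat.card_congr e.toEquiv]; exact card_L
  have hd : Nat.gcd 2 (Fintype.card F - 1) ≤ 2 := Nat.gcd_le_left _ (by norm_num)
  have hd0 : 0 < Nat.gcd 2 (Fintype.card F - 1) := Nat.gcd_pos_of_pos_left _ (by norm_num)
  have hB1 : Nat.card B ≤ Fintype.card F * (Fintype.card F - 1) * f :=
    (Nat.le_of_dvd Nat.card_pos (Subgroup.card_dvd_of_le hQ)).trans (card_SG_le e hex.cent hf hF (by omega) Q)
  have hm := hex.card_mul
  have hle := le_q hp.two_le hF hbig
  set q := Fintype.card F with hq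
  have h5 : 5 ≤ Nat.card (H.subgroupOf T) := by
    by_contra hlt
    have h1 : Nat.card T ≤ 4 * (q * (q - 1) * f) := by
      rw [← hm]; exact Nat.mul_le_mul (by omega) hB1
    have h2 : q * (q - 1) * (q + 1) ≤ q * (q - 1) * (8 * f) := by
      calc q * (q - 1) * (q + 1) = q * (q ^ 2 - 1) := by rw [sq_sub]; ring
        _ = Nat.gcd 2 (q - 1) * Nat.card T := hcT.symm
        _ ≤ 2 * (4 * (q * (q - 1) * f)) := Nat.mul_le_mul hd h1
        _ = q * (q - 1) * (8 * f) := by ring
    have h3 : q + 1 ≤ 8 * f := Nat.le_of_mul_le_mul_left h2 (Nat.mul_pos (by omega) (by omega))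
    have h4 : f ≤ f ^ 3 := Nat.le_self_pow (by norm_num) f
    omega
  have hc := card_dih hex hbig e hP h5
  rw [← hq] at hc
  have hN := gcd_mul_div (q := q) (by omega)
  set N := (q + 1) / Nat.gcd 2 (q - 1) with hNdef
  constructor
  · rw [hc] at hm
    have h2 : (Nat.gcd 2 (q - 1) * N) * (2 * Nat.card B) = (q + 1) * (q * (q - 1)) := by
      calc (Nat.gcd 2 (q - 1) * N) * (2 * Nat.card B) = Nat.gcd 2 (q - 1) * (2 * N * Nat.card B) := by ring
        _ = q * (q ^ 2 - 1) := by rw [hm, hcT]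
        _ = (q + 1) * (q * (q - 1)) := by rw [sq_sub]; ring
    rw [hN] at h2
    exact Nat.eq_of_mul_eq_mul_left (Nat.succ_pos q) h2
  · have : Fact (Nat.Prime 2) := ⟨Nat.prime_two⟩
    obtain ⟨x, hx⟩ := exists_prime_orderOf_dvd_card' (G := H.subgroupOf T) 2 (by rw [hc]; exact dvd_mul_right _ _)
    exact ⟨x, x.2, by rw [Subgroup.orderOf_coe]; exact hx⟩

end

end Cfsg.Agent.H370.Rg.P2
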