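import Cfsg.Agent.H370.Rg.PslTwoC
import Cfsg.Agent.H831.Rl.HerB
import Cfsg.Agent.Lib.AutSL2

/-!
# S3691, row `PSL_2(q)`: coordinates, the stabiliser of a point as a semilinear group (helper370)
-/

set_option autoImplicit false

namespace Cfsg.Agent.H370.Rg.P2

open Cfsg Subgroup Matrix Cfsg.Agent.H454.Reg Cfsg.Agent.H831.Rl
open Cfsg.Agent.H199.PslAut
open Cfsg.Agent.ClassicalGeometry.AutPSL.Root (pr pr_surjective)
open Cfsg.Agent.ClassicalGeometry.AutPSL.Auto (cj fld coe_cj coe_fld_apply)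
open Cfsg.Agent.Lib.SL2Mat (up ent)
open scoped MatrixGroups

universe u

section

variable {G : Type u} [Group G] [Finite G] {T H B : Subgroup G} {F : Type} [Field F] [Fintype F] {p f : ℕ}

local notation "L" => Matrix.ProjectiveSpecialLinearGroup (Fin 2) F

omit [Fintype F] in
theorem pr_eq_iff {a b : Matrix.SpecialLinearGroup (Fin 2) F} (h : (pr a : L) = pr b) : b = a ∨ b = -a := by
  have h1 : a⁻¹ * b ∈ Subgroup.center (Matrix.SpecialLinearGroup (Fin 2) F) := QuotientGroup.eq.1 h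
  rcases Cfsg.Agent.ClassicalGeometry.PSL2Basic.mem_center_SL2_iff.1 h1 with h2 | h2
  · left
    rw [inv_mul_eq_one] at h2
    exact h2.symm
  · right
    rw [inv_mul_eq_iff_eq_mul] at h2
    rw [h2, mul_neg, mul_one]

/-- coordinates in which `Q` is the group of the upper unitriangular matrices -/
theorem exists_coord [Fact p.Prime] [CharP F p] (e : T ≃* L) (Q : Sylow p T) :
    ∃ e' : T ≃* L, ∀ t : T, t ∈ Q ↔ ∃ c : F, e' t = pr (up c) := by
  let U : Sylow p L := (Cfsg.Agent.Lib.AutSL2.sylU F p).mapSurjective (f := (pr : Matrix.SpecialLinearGroup (Fin 2) F →* _)) pr_surjective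
  have hU : ∀ x, x ∈ U ↔ ∃ c : F, x = pr (up c) := by
    intro x
    constructor
    · rintro ⟨z, ⟨c, rfl⟩, hz⟩
      exact ⟨c, hz.symm⟩
    · rintro ⟨c, rfl⟩
      exact ⟨up c, ⟨c, rfl⟩, rfl⟩
  let Q' : Sylow p L := Q.mapSurjective (f := e.toMonoidHom) e.surjective
  have hQ' : ∀ t : T, t ∈ Q ↔ e t ∈ Q' := by
    intro t
    constructor
    · intro h
      exact ⟨t, h, rfl⟩
    · rintro ⟨s, hs, h⟩
      have : s = t := e.injective h
      rw [← this]; exact hs
  obtain ⟨g, hg⟩ := MulAction.exists_smul_eq L Q' U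
  refine ⟨e.trans (MulAut.conj g), fun t => ?_⟩
  have h1 : (e.trans (MulAut.conj g)) t = g * e t * g⁻¹ := rfl
  rw [h1, ← hU, ← hg, Cfsg.Agent.Lib.AutSL2.mem_smul_sylow, hQ']
  have h2 : g⁻¹ * (g * e t * g⁻¹) * g = e t := by group
  rw [h2]

omit [Finite G] [Fintype F] in
/-- the elements of the stabiliser are upper triangular -/
theorem upper (hT : T.Normal) {e : T ≃* L} {Q : Sylow p T} (hQ : ∀ t : T, t ∈ Q ↔ ∃ c : F, e t = pr (up c))
    {y : G} (hy : y ∈ SG Q) {a : GL (Fin 2) F} {σ : F ≃+* F} (h : au hT e y = Psi 2 F a * phi 2 F σ) :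
    (a : Matrix (Fin 2) (Fin 2) F) 1 0 = 0 := by
  have h1 : e.symm (pr (up 1)) ∈ Q := (hQ _).2 ⟨1, e.apply_symm_apply _⟩
  have h2 : MulAut.conjNormal y (e.symm (pr (up 1))) ∈ Q := by
    have h3 : (MulAut.conjNormal y : MulAut T) • Q = Q := hy
    rw [← h3]
    exact Subgroup.smul_mem_pointwise_smul _ (MulAut.conjNormal y : MulAut T) (Q : Subgroup T) h1
  obtain ⟨c, hc⟩ := (hQ _).1 h2
  have h3 : au hT e y (pr (up 1)) = pr (up c) := hc
  rw [h] at h3
  have h4 : (pr (cj a (fld σ (up 1))) : L) = pr (up c) := h3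
  have key : ∀ z : Matrix.SpecialLinearGroup (Fin 2) F, z = cj a (fld σ (up 1)) →
      (z : Matrix (Fin 2) (Fin 2) F) * (a : Matrix (Fin 2) (Fin 2) F) =
        (a : Matrix (Fin 2) (Fin 2) F) * !![1, 1; 0, 1] := by
    intro z hz
    have h5 : (fld σ (up 1) : Matrix (Fin 2) (Fin 2) F) = !![1, 1; 0, 1] := by
      ext i j
      rw [coe_fld_apply]
      fin_cases i <;> fin_cases j
      · exact map_one σ
      · exact map_one σ
      · exact map_zero σ
      · exact map_one σ
    rw [hz, coe_cj, h5, mul_assoc, ← Units.val_mul, inv_mul_cancel, Units.val_one, mul_one]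
  have hup : ((up c : Matrix.SpecialLinearGroup (Fin 2) F) : Matrix (Fin 2) (Fin 2) F) = !![1, c; 0, 1] := rfl
  rcases pr_eq_iff h4 with h5 | h5
  · have h6 := key _ h5
    rw [hup] at h6
    have h7 := congrFun (congrFun h6 1) 1
    simp [Matrix.mul_apply, Fin.sum_univ_two] at h7
    exact h7
  · have h6 := key (-(up c)) (by rw [h5, neg_neg])
    rw [Matrix.SpecialLinearGroup.coe_neg, hup] at h6
    have h7 := congrFun (congrFun h6 1) 1
    have h8 := congrFun (congrFun h6 1) 0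
    simp [Matrix.mul_apply, Fin.sum_univ_two] at h7 h8
    by_cases h2 : (2 : F) = 0
    · have h9 : (a : Matrix (Fin 2) (Fin 2) F) 1 1 * 2 = 0 := by rw [h2, mul_zero]
      linear_combination -h7 - h9
    · have h9 : 2 * (a : Matrix (Fin 2) (Fin 2) F) 1 0 = 0 := by linear_combination -h8
      exact (mul_eq_zero.1 h9).resolve_left h2

omit [Finite G] in
/-- every element has a lift -/
theorem exists_lift (hT : T.Normal) (e : T ≃* L) (x : G) : ∃ π a σ, Rep hT e x π a σ := by
  rcases exists_form le_rfl (au hT e x) with ⟨a, σ, h⟩ | ⟨h, -⟩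
  · obtain ⟨π, hπ⟩ := exists_rep hT e h
    exact ⟨π, a, σ, hπ⟩
  · omega

end

end Cfsg.Agent.H370.Rg.P2
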