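import Cfsg.Agent.H370.Rg.PslTwoD
import Cfsg.Agent.Lib.FieldAutCard
import Cfsg.Agent.ClassicalGeometry.SLTwoFour

/-!
# S3691, row `PSL_2(q)`: `H = D_{2 (q + 1) / d}`, the complement is a subgroup of `AΓL_1(q)` (helper370)
-/

set_option autoImplicit false

namespace Cfsg.Agent.H370.Rg.P2

open Cfsg Subgroup Matrix Cfsg.Agent.H454.Reg Cfsg.Agent.H831.Rl
open Cfsg.Agent.H199.PslAut
open Cfsg.Agent.ClassicalGeometry.AutPSL.Root (pr pr_surjective)
open Cfsg.Agent.ClassicalGeometry.AutPSL.Auto (cj fld coe_cj coe_fld_apply)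
open Cfsg.Agent.Lib.SL2Mat (up ent dg dg_up)
open scoped MatrixGroups

universe u

section inv

variable {F : Type*} [Field F] [Fintype F]

local notation "L" => Matrix.ProjectiveSpecialLinearGroup (Fin 2) F

/-- all involutions of `PSL_2(q)`, `q` even, are conjugate -/
theorem inv_even [CharP F 2] (x : L) (hx : orderOf x = 2) : IsConj (pr (up 1) : L) x := by
  have : Fact (Nat.Prime 2) := ⟨Nat.prime_two⟩
  let U : Sylow 2 L := (Cfsg.Agent.Lib.AutSL2.sylU F 2).mapSurjective (f := (pr : Matrix.SpecialLinearGroup (Fin 2) F →* _)) pr_surjective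
  have hz : IsPGroup 2 (zpowers x) := by
    rw [IsPGroup.iff_card]
    exact ⟨1, by rw [Nat.card_zpowers, hx, pow_one]⟩
  obtain ⟨P, hP⟩ := hz.exists_le_sylow
  obtain ⟨g, rfl⟩ := MulAction.exists_smul_eq L U P
  have h1 : x ∈ g • U := hP (mem_zpowers x)
  rw [Cfsg.Agent.Lib.AutSL2.mem_smul_sylow] at h1
  obtain ⟨_, ⟨c, rfl⟩, hc⟩ := h1
  have hc' : (pr (up c) : L) = g⁻¹ * x * g := hc
  have hx1 : x ≠ 1 := by
    rintro rfl
    rw [orderOf_one] at hx
    omega
  have hc0 : c ≠ 0 := by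
    rintro rfl
    rw [Cfsg.Agent.Lib.SL2Mat.up_zero, map_one] at hc'
    apply hx1
    calc x = g * (g⁻¹ * x * g) * g⁻¹ := by group
      _ = 1 := by rw [← hc']; group
  obtain ⟨b, hb⟩ := FiniteField.isSquare_of_char_two (F := F) (ringChar.eq_iff.2 inferInstance) c
  have hb0 : b ≠ 0 := by
    rintro rfl
    rw [mul_zero] at hb
    exact hc0 hb
  rw [isConj_iff]
  refine ⟨g * pr (dg b hb0), ?_⟩
  have h2 : (pr (dg b hb0) : L) * pr (up 1) = pr (up c) * pr (dg b hb0) := by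
    rw [← map_mul, ← map_mul, dg_up, mul_one, hb, pow_two]
  calc g * pr (dg b hb0) * pr (up 1) * (g * pr (dg b hb0))⁻¹ = g * (pr (dg b hb0) * pr (up 1)) * (pr (dg b hb0))⁻¹ * g⁻¹ := by group
    _ = g * (g⁻¹ * x * g) * g⁻¹ := by rw [h2, hc']; group
    _ = x := by group

/-- all involutions of `PSL_2(q)` are conjugate -/
theorem inv_conj (x y : L) (hx : orderOf x = 2) (hy : orderOf y = 2) : IsConj x y := by
  rcases Nat.even_or_odd (Fintype.card F) with h | h
  · obtain ⟨p, hp⟩ := CharP.exists F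
    have hpp : p.Prime := CharP.char_is_prime F p
    obtain ⟨n, -, hn⟩ := FiniteField.card F p
    rw [hn] at h
    have h3 : Even p := (Nat.even_pow.1 h).1
    obtain rfl : p = 2 := (Nat.Prime.even_iff hpp).1 h3
    exact (inv_even x hx).symm.trans (inv_even y hy)
  · exact Cfsg.Agent.ClassicalGeometry.SLTwoFour.psl_isConj h x y hx hy

end inv

/-! ### the action on the affine line -/

section aff

variable {G : Type u} [Group G] {T : Subgroup G} {F : Type} [Field F]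

local notation "L" => Matrix.ProjectiveSpecialLinearGroup (Fin 2) F

/-- `x` acts on the affine line as `g` -/
def Af (hT : T.Normal) (e : T ≃* L) (x : G) (g : F → F) : Prop :=
  ∃ π a σ, Rep hT e x π a σ ∧ ∀ t : F, ∃ c : F, c ≠ 0 ∧ π ![t, 1] = c • ![g t, 1]

variable {hT : T.Normal} {e : T ≃* Matrix.ProjectiveSpecialLinearGroup (Fin 2) F}

theorem Af.one : Af hT e 1 id := ⟨1, 1, 1, Rep.one, fun t => ⟨1, one_ne_zero, by rw [one_smul]; rfl⟩⟩

theorem Af.mul {x y : G} {g k : F → F} (hx : Af hT e x g) (hy : Af hT e y k) : Af hT e (x * y) (g ∘ k) := by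
  obtain ⟨π, a, σ, h1, h2⟩ := hx
  obtain ⟨ρ, b, τ, h3, h4⟩ := hy
  refine ⟨_, _, _, h1.mul h3, fun t => ?_⟩
  obtain ⟨c, hc, h5⟩ := h4 t
  obtain ⟨d, hd, h6⟩ := h2 (k t)
  refine ⟨σ c * d, mul_ne_zero ((map_ne_zero_iff σ σ.injective).2 hc) hd, ?_⟩
  rw [Equiv.Perm.mul_apply, h5, h1.smul, h6, smul_smul]
  rfl

theorem Af.unique {x : G} {g k : F → F} (hx : Af hT e x g) (hy : Af hT e x k) : g = k := by
  obtain ⟨π, a, σ, h1, h2⟩ := hx
  obtain ⟨ρ, b, τ, h3, h4⟩ := hy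
  obtain ⟨-, c, hc, h5⟩ := h1.unique' le_rfl h3
  funext t
  obtain ⟨d, hd, h6⟩ := h2 t
  obtain ⟨d', hd', h7⟩ := h4 t
  rw [h5, h7, smul_smul] at h6
  have h8 := congrFun h6 0
  have h9 := congrFun h6 1
  simp at h8 h9
  rw [h9] at h8
  exact (mul_left_cancel₀ hd h8).symm

theorem af_formula {x : G} {a : GL (Fin 2) F} {σ : F ≃+* F} (h : au hT e x = Psi 2 F a * phi 2 F σ)
    (h0 : (a : Matrix (Fin 2) (Fin 2) F) 1 0 = 0) :
    (a : Matrix (Fin 2) (Fin 2) F) 0 0 ≠ 0 ∧ (a : Matrix (Fin 2) (Fin 2) F) 1 1 ≠ 0 ∧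
      Af hT e x (fun t => (a : Matrix (Fin 2) (Fin 2) F) 0 0 / (a : Matrix (Fin 2) (Fin 2) F) 1 1 * σ t +
        (a : Matrix (Fin 2) (Fin 2) F) 0 1 / (a : Matrix (Fin 2) (Fin 2) F) 1 1) := by
  have hdet : (a : Matrix (Fin 2) (Fin 2) F).det ≠ 0 := by
    have h1 : IsUnit (a : Matrix (Fin 2) (Fin 2) F).det := (Matrix.isUnit_iff_isUnit_det _).1 a.isUnit
    exact h1.ne_zero
  rw [Matrix.det_fin_two, h0, mul_zero, sub_zero] at hdet
  have h00 := left_ne_zero_of_mul hdet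
  have h11 := right_ne_zero_of_mul hdet
  refine ⟨h00, h11, ?_⟩
  obtain ⟨π, hπ⟩ := exists_rep hT e h
  refine ⟨π, a, σ, hπ, fun t => ⟨(a : Matrix (Fin 2) (Fin 2) F) 1 1, h11, ?_⟩⟩
  rw [hπ.eq]
  funext i
  fin_cases i
  · simp [Matrix.mulVec, dotProduct, Fin.sum_univ_two]
    field_simp
  · simp [Matrix.mulVec, dotProduct, Fin.sum_univ_two, h0]

end aff

section dih

variable {G : Type u} [Group G] [Finite G] {T H B : Subgroup G} {F : Type} [Field F] [Fintype F] {p f : ℕ}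

/-- the factor `B ∩ T` has odd order -/
theorem odd_inf (hf : Fac T H B) (e : T ≃* Matrix.ProjectiveSpecialLinearGroup (Fin 2) F)
    (hx : ∃ x ∈ H.subgroupOf T, orderOf x = 2) : ¬ ∃ y ∈ B.subgroupOf T, orderOf y = 2 := by
  rintro ⟨y, hy, oy⟩
  obtain ⟨x, hx, ox⟩ := hx
  have h1 := inv_conj (e x) (e y) (by rw [MulEquiv.orderOf_eq, ox]) (by rw [MulEquiv.orderOf_eq, oy])
  obtain ⟨c, hc⟩ := isConj_iff.1 h1
  obtain ⟨t, rfl⟩ := e.surjective c
  rw [← map_inv, ← map_mul, ← map_mul] at hc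
  have h2 : t * x * t⁻¹ = y := e.injective hc
  have h3 : (x : G) = 1 := hf.not_conj hx (t : G) (by
    have : ((t * x * t⁻¹ : T) : G) = (t : G) * x * (t : G)⁻¹ := rfl
    rw [← this, h2]
    exact hy)
  have h4 : x = 1 := Subtype.ext h3
  rw [h4, orderOf_one] at ox
  omega

/-- the linear part of `B` has odd order if `q = 1 mod 4` -/
theorem odd_linear [T.Normal] (hf : Fac T H B) (e : T ≃* Matrix.ProjectiveSpecialLinearGroup (Fin 2) F) {Q : Sylow p T}
    (hQ : ∀ t : T, t ∈ Q ↔ ∃ c : F, e t = pr (up c)) (hB : B ≤ SG Q) (h4 : Fintype.card F % 4 = 1)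
    (hx : ∃ x ∈ H.subgroupOf T, orderOf x = 2) {z : G} (hz : z ∈ B) (oz : orderOf z = 2) {a : GL (Fin 2) F}
    (ha : au hf.normal e z = Psi 2 F a) : False := by
  have hT := hf.normal
  have h2F : (2 : F) ≠ 0 := by
    rw [Cfsg.Agent.ClassicalGeometry.PSL2Basic.two_ne_zero_iff_odd F, Nat.odd_iff]
    omega
  have h10 : (a : Matrix (Fin 2) (Fin 2) F) 1 0 = 0 :=
    upper hf.normal hQ (hB hz) (σ := 1) (by rw [ha, map_one, mul_one])
  have hdet : (a : Matrix (Fin 2) (Fin 2) F).det ≠ 0 := by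
    have h1 : IsUnit (a : Matrix (Fin 2) (Fin 2) F).det := (Matrix.isUnit_iff_isUnit_det _).1 a.isUnit
    exact h1.ne_zero
  have hdet' := hdet
  rw [Matrix.det_fin_two, h10, mul_zero, sub_zero] at hdet'
  have h00 := left_ne_zero_of_mul hdet'
  have h11 := right_ne_zero_of_mul hdet'
  have hz2 : z ^ 2 = 1 := by rw [← oz]; exact pow_orderOf_eq_one z
  have hsq : Psi 2 F (a * a) = 1 := by rw [map_mul, ← ha, ← map_mul, ← pow_two, hz2, map_one]
  obtain ⟨u, hu⟩ := (Psi_eq_one_iff le_rfl).1 hsq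
  have hne : ∀ u : Fˣ, a ≠ scal 2 F u := by
    intro u hu
    have h1 : au hf.normal e z = 1 := by rw [ha, hu, Psi_scal]
    have h2 : z = 1 := au_inj hf.normal e hf.cent (by rw [h1, map_one])
    rw [h2, orderOf_one] at oz
    omega
  have hmat : (a : Matrix (Fin 2) (Fin 2) F) * (a : Matrix (Fin 2) (Fin 2) F) = scalar (Fin 2) (u : F) := by
    rw [← Units.val_mul, hu, coe_scal]
  have e00 := congrFun (congrFun hmat 0) 0
  have e01 := congrFun (congrFun hmat 0) 1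
  have e11 := congrFun (congrFun hmat 1) 1
  simp [Matrix.mul_apply, Fin.sum_univ_two, h10] at e00 e01 e11
  -- `a₀₀ = - a₁₁`
  have hneg : (a : Matrix (Fin 2) (Fin 2) F) 0 0 = -(a : Matrix (Fin 2) (Fin 2) F) 1 1 := by
    have h5 : ((a : Matrix (Fin 2) (Fin 2) F) 0 0 - (a : Matrix (Fin 2) (Fin 2) F) 1 1) *
        ((a : Matrix (Fin 2) (Fin 2) F) 0 0 + (a : Matrix (Fin 2) (Fin 2) F) 1 1) = 0 := by
      linear_combination e00 - e11
    rcases mul_eq_zero.1 h5 with h6 | h6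
    · exfalso
      have h7 : (a : Matrix (Fin 2) (Fin 2) F) 0 0 = (a : Matrix (Fin 2) (Fin 2) F) 1 1 := sub_eq_zero.1 h6
      have h8 : (a : Matrix (Fin 2) (Fin 2) F) 0 1 = 0 := by
        have h9 : 2 * (a : Matrix (Fin 2) (Fin 2) F) 1 1 * (a : Matrix (Fin 2) (Fin 2) F) 0 1 = 0 := by
          rw [h7] at e01
          linear_combination e01
        exact (mul_eq_zero.1 h9).resolve_left (mul_ne_zero h2F h11)
      apply hne (Units.mk0 _ h11)
      apply Units.ext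
      rw [coe_scal]
      ext i j
      fin_cases i <;> fin_cases j
      · simpa using h7
      · simpa using h8
      · simpa using h10
      · simp
    · linear_combination h6
  -- a square root of `-1`
  obtain ⟨i, hi⟩ := FiniteField.isSquare_neg_one_iff.2 (by omega : Fintype.card F % 4 ≠ 3)
  have hi0 : i ≠ 0 := by
    rintro rfl
    rw [mul_zero] at hi
    exact (neg_ne_zero.2 one_ne_zero) hi
  have hc0 : i * (a : Matrix (Fin 2) (Fin 2) F) 1 1 ≠ 0 := mul_ne_zero hi0 h11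
  set c : Fˣ := Units.mk0 _ hc0 with hc
  have hcv : (c : F) = i * (a : Matrix (Fin 2) (Fin 2) F) 1 1 := rfl
  have hdet2 : ((scal 2 F c⁻¹ * a : GL (Fin 2) F) : Matrix (Fin 2) (Fin 2) F).det = 1 := by
    rw [Units.val_mul, Matrix.det_mul, coe_scal, Matrix.det_fin_two, Matrix.det_fin_two, h10, hneg]
    have h1 : ((c⁻¹ : Fˣ) : F) * (c : F) = 1 := by rw [← Units.val_mul, inv_mul_cancel, Units.val_one]
    rw [hcv] at h1
    simp only [Matrix.scalar_apply, Matrix.diagonal_apply_eq]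
    have h01 : (Matrix.diagonal fun _ : Fin 2 => ((c⁻¹ : Fˣ) : F)) 0 1 = 0 := Matrix.diagonal_apply_ne _ (by decide)
    rw [h01]
    linear_combination (((c⁻¹ : Fˣ) : F) * (i * (a : Matrix (Fin 2) (Fin 2) F) 1 1) + 1) * h1 +
      ((c⁻¹ : Fˣ) : F) ^ 2 * (a : Matrix (Fin 2) (Fin 2) F) 1 1 ^ 2 * hi
  obtain ⟨s, hs⟩ := exists_sl (mem_sl_iff.2 hdet2)
  have h6 : au hf.normal e ((e.symm (pr s) : T) : G) = au hf.normal e z := by
    rw [au_coe, e.apply_symm_apply, ha]
    have h7 : Psi 2 F a = Psi 2 F (scal 2 F c⁻¹ * a) := by rw [map_mul, Psi_scal, one_mul]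
    rw [h7, ← hs]
    exact (Psi_coe s).symm
  have h7 : ((e.symm (pr s) : T) : G) = z := au_inj hf.normal e hf.cent h6
  apply odd_inf hf e hx
  refine ⟨e.symm (pr s), ?_, ?_⟩
  · rw [Subgroup.mem_subgroupOf, h7]; exact hz
  · have h8 : orderOf (e.symm (pr s)) = orderOf z := by rw [← h7, Subgroup.orderOf_coe]
    rw [h8, oz]

theorem eight_dvd {x : ℕ} (hx : Odd x) (k : ℕ) : 2 ^ (k + 3) ∣ x ^ 2 ^ (k + 1) - 1 := by
  induction k with
  | zero =>
    obtain ⟨j, rfl⟩ := hx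
    have h1 : (2 * j + 1) ^ 2 ^ (0 + 1) - 1 = 4 * (j * (j + 1)) := by
      have : (2 * j + 1) ^ 2 ^ (0 + 1) = 4 * (j * (j + 1)) + 1 := by ring
      omega
    rw [h1]
    obtain ⟨c, hc⟩ := Nat.even_mul_succ_self j
    rw [hc]
    exact ⟨c, by ring⟩
  | succ k ih =>
    have h1 : x ^ 2 ^ (k + 1 + 1) - 1 = (x ^ 2 ^ (k + 1) - 1) * (x ^ 2 ^ (k + 1) + 1) := by
      rw [← sq_sub, ← pow_mul, ← pow_succ]
    have h2 : 2 ∣ x ^ 2 ^ (k + 1) + 1 := by
      rw [← even_iff_two_dvd]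
      exact (hx.pow).add_one
    rw [h1, show k + 1 + 3 = (k + 3) + 1 from rfl, pow_succ]
    exact Nat.mul_dvd_mul ih h2

theorem num_two {q p f b n i : ℕ} (h4 : q % 4 = 1) (hq : q = p ^ f) (hf : 1 ≤ f) (hb : 2 * b = q * (q - 1)) (hbn : n * i = b)
    (hn : ¬ 2 ∣ n) (hi : i ∣ f) : False := by
  have hqo : Odd q := by rw [Nat.odd_iff]; omega
  have hpo : Odd p := by
    rw [hq] at hqo
    exact Nat.Odd.of_mul_left (n := p ^ (f - 1)) (by rw [← pow_succ', Nat.sub_add_cancel hf]; exact hqo)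
  obtain ⟨k, m, hm, hfm⟩ := Nat.exists_eq_two_pow_mul_odd (n := f) (by omega)
  have h1 : 2 ^ (k + 2) ∣ q - 1 := by
    rcases k with _ | k
    · have : (2 : ℕ) ^ (0 + 2) = 4 := by norm_num
      rw [this]; omega
    · refine (eight_dvd hpo k).trans ?_
      have h2 : q = (p ^ 2 ^ (k + 1)) ^ m := by rw [hq, hfm, pow_mul]
      have h3 := Nat.sub_dvd_pow_sub_pow (p ^ 2 ^ (k + 1)) 1 m
      rwa [one_pow, ← h2] at h3
  have h2 : 2 ^ (k + 2) ∣ 2 * (n * i) := by rw [hbn, hb]; exact h1.mul_left q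
  have h3 : 2 ^ (k + 1) ∣ n * i := by
    rw [show k + 2 = (k + 1) + 1 from rfl, pow_succ'] at h2
    exact Nat.dvd_of_mul_dvd_mul_left (by norm_num) h2
  have h5 : Nat.Coprime (2 ^ (k + 1)) n := Nat.Coprime.pow_left _ ((Nat.Prime.coprime_iff_not_dvd Nat.prime_two).2 hn)
  have h6 : 2 ^ (k + 1) ∣ 2 ^ k * m := by rw [← hfm]; exact (h5.dvd_of_dvd_mul_left h3).trans hi
  rw [pow_succ] at h6
  have h7 : 2 ∣ m := Nat.dvd_of_mul_dvd_mul_left (pow_pos (by norm_num) k) h6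
  rw [← even_iff_two_dvd] at h7
  exact (Nat.not_even_iff_odd.2 hm) h7

/-- the index of the inner-diagonal automorphisms -/
theorem index_dvd_f [Fact p.Prime] (hf : 1 ≤ f) (hF : Fintype.card F = p ^ f) :
    (Psi 2 F).range.Normal ∧ (Psi 2 F).range.index ∣ f := by
  have hn : (Psi 2 F).range.Normal := by
    rw [← inndiag_eq]
    exact inndiag_normal le_rfl
  refine ⟨hn, ?_⟩
  have h1 : Nat.card (F ≃+* F) = f := Lib.FieldAutCard.card_ringAut hf hF
  rw [← h1]
  let ψ : (F ≃+* F) →* MulAut (Matrix.ProjectiveSpecialLinearGroup (Fin 2) F) ⧸ (Psi 2 F).range :=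
    (QuotientGroup.mk' (Psi 2 F).range).comp (phi 2 F)
  have hfin : Finite (F ≃+* F) := Nat.finite_of_card_ne_zero (by rw [h1]; omega)
  refine Subgroup.card_dvd_of_surjective ψ ?_
  intro z
  obtain ⟨α, rfl⟩ := QuotientGroup.mk_surjective z
  rcases exists_form le_rfl α with ⟨a, σ, h⟩ | ⟨h, -⟩
  · refine ⟨σ, ?_⟩
    change (QuotientGroup.mk (phi 2 F σ) : MulAut (Matrix.ProjectiveSpecialLinearGroup (Fin 2) F) ⧸ (Psi 2 F).range) = QuotientGroup.mk α
    have h2 : (QuotientGroup.mk (Psi 2 F a) : MulAut (Matrix.ProjectiveSpecialLinearGroup (Fin 2) F) ⧸ (Psi 2 F).range) = 1 :=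
      (QuotientGroup.eq_one_iff _).2 ⟨a, rfl⟩
    rw [h, QuotientGroup.mk_mul, h2, one_mul]
  · omega

/-- **the dihedral case** -/
theorem case_dih [Fact p.Prime] [CharP F p] (hex : Ex T H B) (hfac : Fac T H B) (hbig : 29823000000 < Fintype.card F)
    (e0 : T ≃* Matrix.ProjectiveSpecialLinearGroup (Fin 2) F) (hF : Fintype.card F = p ^ f) [hTn : T.Normal]
    (hP : Plus (Fintype.card F) (H.subgroupOf T)) (hpB : p ∣ Nat.card (B.subgroupOf T)) (hBQ : ∃ Q : Sylow p T, B ≤ SG Q) :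
    Concl B := by
  classical
  have hp : p.Prime := Fact.out
  have hf : 1 ≤ f := by
    rcases Nat.eq_zero_or_pos f with rfl | h0
    · rw [pow_zero] at hF; omega
    · exact h0
  obtain ⟨Q, hBQ⟩ := hBQ
  obtain ⟨hcB, hx⟩ := cards_dih hex hbig e0 hF hP hBQ
  obtain ⟨e, hQ⟩ := exists_coord e0 Q
  have hodd := odd_inf hfac e hx
  -- `p` is odd
  have hp2 : p ≠ 2 := by
    rintro rfl
    obtain ⟨y, hy⟩ := exists_prime_orderOf_dvd_card' 2 hpB
    exact hodd ⟨y, y.2, by rw [Subgroup.orderOf_coe]; exact hy⟩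
  have hqo : Odd (Fintype.card F) := by
    rw [hF]
    exact (hp.odd_of_ne_two hp2).pow
  have hq4 : Fintype.card F % 4 = 1 ∨ Fintype.card F % 4 = 3 := by
    rw [Nat.odd_iff] at hqo
    omega
  -- the lifts
  have hform : ∀ b : B, ∃ (a : GL (Fin 2) F) (σ : F ≃+* F), au hTn e (b : G) = Psi 2 F a * phi 2 F σ ∧
      (a : Matrix (Fin 2) (Fin 2) F) 1 0 = 0 := by
    intro b
    obtain ⟨π, a, σ, h⟩ := exists_lift hTn e (b : G)
    exact ⟨a, σ, h.au_eq, upper hTn hQ (hBQ b.2) h.au_eq⟩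
  choose A S hAS hA0 using hform
  rcases hq4 with h4 | h4
  · exfalso
    obtain ⟨hRn, hRi⟩ := index_dvd_f (F := F) hf hF
    let ψ : B →* MulAut (Matrix.ProjectiveSpecialLinearGroup (Fin 2) F) := (au hTn e).comp B.subtype
    let N : Subgroup B := (Psi 2 F).range.comap ψ
    have hNi : N.index ∣ f := by
      have h1 : N.index = (Psi 2 F).range.relIndex ψ.range := Subgroup.index_comap _ _
      rw [h1]
      exact (Subgroup.relIndex_dvd_index_of_normal _ _).trans hRi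
    refine num_two h4 hF hf hcB N.card_mul_index ?_ hNi
    intro h2
    have : Fact (Nat.Prime 2) := ⟨Nat.prime_two⟩
    obtain ⟨z, hz⟩ := exists_prime_orderOf_dvd_card' 2 h2
    obtain ⟨a, ha⟩ := z.2
    refine odd_linear hfac e hQ hBQ h4 hx (z := ((z : B) : G)) (z : B).2 ?_ (a := a) ha.symm
    rw [Subgroup.orderOf_coe, Subgroup.orderOf_coe]
    exact hz
  · right; left
    refine ⟨F, inferInstance, inferInstance, h4, hcB, ?_⟩
    let g : B → F → F := fun b t => (A b : Matrix (Fin 2) (Fin 2) F) 0 0 / (A b : Matrix (Fin 2) (Fin 2) F) 1 1 * S b t +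
      (A b : Matrix (Fin 2) (Fin 2) F) 0 1 / (A b : Matrix (Fin 2) (Fin 2) F) 1 1
    have hg : ∀ b : B, (A b : Matrix (Fin 2) (Fin 2) F) 0 0 ≠ 0 ∧ (A b : Matrix (Fin 2) (Fin 2) F) 1 1 ≠ 0 ∧
        Af hTn e (b : G) (g b) := fun b => af_formula (hAS b) (hA0 b)
    let φ0 : B →* Function.End F :=
      { toFun := g
        map_one' := ((hg 1).2.2).unique (k := id) Af.one
        map_mul' := fun x y => ((hg (x * y)).2.2).unique ((hg x).2.2.mul (hg y).2.2) }
    have hφ : ∀ (b : B) (t : F), φ0.toHomPerm b t = g b t := fun _ _ => rfl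
    refine ⟨φ0.toHomPerm, ?_, ?_⟩
    · rw [injective_iff_map_eq_one]
      intro b hb
      have h1 : ∀ t : F, g b t = t := fun t => by rw [← hφ, hb]; rfl
      obtain ⟨h00, h11, -⟩ := hg b
      have e1 := h1 0
      have e2 := h1 1
      simp only [g, map_zero, mul_zero, zero_add, map_one, mul_one] at e1 e2
      have e3 : (A b : Matrix (Fin 2) (Fin 2) F) 0 1 = 0 := by
        rcases div_eq_zero_iff.1 e1 with h | h
        · exact h
        · exact absurd h h11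
      have e4 : (A b : Matrix (Fin 2) (Fin 2) F) 0 0 = (A b : Matrix (Fin 2) (Fin 2) F) 1 1 := by
        rw [e1, add_zero] at e2
        exact (div_eq_one_iff_eq h11).1 e2
      have e5 : S b = 1 := by
        apply RingEquiv.ext
        intro t
        have h2 := h1 t
        simp only [g] at h2
        rw [e1, add_zero, e4, div_self h11, one_mul] at h2
        exact h2
      have e6 : A b = scal 2 F (Units.mk0 _ h11) := by
        apply Units.ext
        rw [coe_scal]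
        ext i j
        fin_cases i <;> fin_cases j
        · simpa using e4
        · simpa using e3
        · simpa using hA0 b
        · simp
      have h3 : au hTn e (b : G) = 1 := by rw [hAS b, e5, e6, Psi_scal, map_one, mul_one]
      exact Subtype.ext (au_inj hTn e hex.cent (by rw [h3, OneMemClass.coe_one, map_one]))
    · rintro _ ⟨b, rfl⟩
      obtain ⟨h00, h11, -⟩ := hg b
      exact ⟨Units.mk0 _ (div_ne_zero h00 h11), (A b : Matrix (Fin 2) (Fin 2) F) 0 1 / (A b : Matrix (Fin 2) (Fin 2) F) 1 1,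
        S b, fun t => rfl⟩

end dih

end Cfsg.Agent.H370.Rg.P2
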