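import Cfsg.Agent.H370.Rg.PslTwoE
import Cfsg.Agent.H831.Rl.HerD

/-!
# S3691, row `PSL_2(q)`: `H` the stabiliser of a point, the complement is metacyclic (helper370)
-/

set_option autoImplicit false

namespace Cfsg.Agent.H370.Rg.P2

open Cfsg Subgroup Matrix Cfsg.Agent.H454.Reg Cfsg.Agent.H831.Rl
open Cfsg.Agent.H199.PslAut
open Cfsg.Agent.ClassicalGeometry.AutPSL.Root (pr pr_surjective)
open Cfsg.Agent.Lib.SL2Mat (up)
open scoped MatrixGroups

universe u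

/-! ### a group of semilinear maps of a one-dimensional space is metacyclic (after helper831) -/

section metac

variable {G : Type u} [Group G] {T : Subgroup G} {n : ℕ} {F : Type} [Field F]
  {e : T ≃* Matrix.ProjectiveSpecialLinearGroup (Fin n) F}

theorem metacyclic (hT : T.Normal) (hc : centralizer (T : Set G) = ⊥) (hn : 0 < n) (B : Subgroup G)
    (hall : ∀ x : G, ∃ π a σ, Rep hT e x π a σ)
    {F₁ : Type} [Field F₁] [Fintype F₁] (e₁ : (Fin n → F) ≃+ F₁)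
    (hsl : ∀ π ∈ Lf hT e B, ∃ (c : F₁) (σ : F₁ ≃+* F₁), ∀ w, e₁ (π w) = c * σ (e₁ w)) :
    ∃ C : Subgroup B, C.Normal ∧ IsCyclic C ∧ ∀ _ : C.Normal, IsCyclic (B ⧸ C) := by
  classical
  -- the multiplications
  let D : Subgroup F₁ˣ :=
    { carrier := {c | ∃ b ∈ B, ∃ π a σ, Rep hT e b π a σ ∧ SR e₁ π (c : F₁) 1}
      one_mem' := ⟨1, B.one_mem, 1, 1, 1, Rep.one, SR.one⟩
      mul_mem' := by
        rintro c d ⟨x, hx, π, a, σ, h1, h1'⟩ ⟨y, hy, ρ, b, τ, h2, h2'⟩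
        exact ⟨x * y, B.mul_mem hx hy, _, _, _, h1.mul h2, h1'.mul h2'⟩
      inv_mem' := by
        rintro c ⟨x, hx, π, a, σ, h1, h1'⟩
        refine ⟨x⁻¹, B.inv_mem hx, _, _, _, h1.inv, ?_⟩
        have h2 := h1'.inv
        rw [inv_one] at h2
        rw [Units.val_inv_eq_inv_val]
        exact h2 }
  have hD : ∀ c : D, ∃ b : B, ∃ π a σ, Rep hT e (b : G) π a σ ∧ SR e₁ π ((c : F₁ˣ) : F₁) 1 := by
    rintro ⟨c, b, hb, h1⟩
    exact ⟨⟨b, hb⟩, h1⟩
  have huniq : ∀ {x y : G} {π ρ : Equiv.Perm (Fin n → F)} {a b : GL (Fin n) F} {σ τ : F ≃+* F} {c : F₁}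
      {μ : F₁ ≃+* F₁}, Rep hT e x π a σ → Rep hT e y ρ b τ → SR e₁ π c μ → SR e₁ ρ c μ → x = y := by
    intro x y π ρ a b σ τ c μ h1 h2 h3 h4
    have h5 : π = ρ := by
      apply Equiv.ext
      intro w
      apply e₁.injective
      rw [h3, h4]
    subst h5
    exact (h1.unique hc hn h2).1
  choose f hfs using hD
  let φ : D →* B :=
    { toFun := f
      map_one' := by
        obtain ⟨π, a, σ, h1, h2⟩ := hfs 1
        exact Subtype.ext (huniq h1 Rep.one h2 SR.one)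
      map_mul' := by
        intro c d
        obtain ⟨π, a, σ, h1, h2⟩ := hfs (c * d)
        obtain ⟨π1, a1, σ1, h3, h4⟩ := hfs c
        obtain ⟨π2, a2, σ2, h5, h6⟩ := hfs d
        exact Subtype.ext (huniq h1 (h3.mul h5) h2 (h4.mul h6)) }
  have hmem : ∀ b : B, b ∈ φ.range ↔ ∃ π a σ, Rep hT e (b : G) π a σ ∧ ∃ c : F₁, SR e₁ π c 1 := by
    intro b
    constructor
    · rintro ⟨c, rfl⟩
      obtain ⟨π, a, σ, h1, h2⟩ := hfs c
      exact ⟨π, a, σ, h1, _, h2⟩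
    · rintro ⟨π, a, σ, h1, c, h2⟩
      refine ⟨⟨Units.mk0 c h2.ne, b, b.2, π, a, σ, h1, h2⟩, ?_⟩
      obtain ⟨π', a', σ', h3, h4⟩ := hfs ⟨Units.mk0 c h2.ne, b, b.2, π, a, σ, h1, h2⟩
      exact Subtype.ext (huniq h3 h1 h4 h2)
  have hlift : ∀ b : B, ∃ π a σ, Rep hT e (b : G) π a σ ∧ ∃ (c : F₁) (τ : F₁ ≃+* F₁), SR e₁ π c τ := by
    intro b
    obtain ⟨π, a, σ, h1⟩ := hall (b : G)
    obtain ⟨c, τ, h2⟩ := hsl π ⟨b, b.2, a, σ, h1⟩
    exact ⟨π, a, σ, h1, c, τ, h2⟩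
  refine ⟨φ.range, ?_, ?_, ?_⟩
  · refine ⟨fun b hb x => ?_⟩
    rw [hmem] at hb ⊢
    obtain ⟨π, a, σ, h1, c, h2⟩ := hb
    obtain ⟨ρ, a', σ', h3, d, τ, h4⟩ := hlift x
    have h5 := (h4.mul h2).mul h4.inv
    rw [mul_one, mul_inv_cancel] at h5
    exact ⟨_, _, _, (h3.mul h1).mul h3.inv, _, h5⟩
  · have : IsCyclic D := inferInstance
    exact isCyclic_of_surjective _ φ.rangeRestrict_surjective
  · intro hnorm
    -- the group of the field automorphisms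
    let E : Subgroup (F₁ ≃+* F₁) :=
      { carrier := {τ | ∃ b ∈ B, ∃ π a σ, Rep hT e b π a σ ∧ ∃ c : F₁, SR e₁ π c τ}
        one_mem' := ⟨1, B.one_mem, 1, 1, 1, Rep.one, 1, SR.one⟩
        mul_mem' := by
          rintro c d ⟨x, hx, π, a, σ, h1, _, h1'⟩ ⟨y, hy, ρ, b, τ, h2, _, h2'⟩
          exact ⟨x * y, B.mul_mem hx hy, _, _, _, h1.mul h2, _, h1'.mul h2'⟩
        inv_mem' := by
          rintro c ⟨x, hx, π, a, σ, h1, _, h1'⟩
          exact ⟨x⁻¹, B.inv_mem hx, _, _, _, h1.inv, _, h1'.inv⟩ }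
    have hcyc : IsCyclic (F₁ ≃+* F₁) := LieRecognition.FieldSemilinear.isCyclic_ringAut F₁
    have hcyc2 : IsCyclic E := inferInstance
    obtain ⟨⟨τ0, b0, hb0, π0, a0, σ0, h1, c0, h2⟩, hgen⟩ := hcyc2.exists_generator
    refine ⟨⟨QuotientGroup.mk (⟨b0, hb0⟩ : B), fun z => ?_⟩⟩
    obtain ⟨b, rfl⟩ := QuotientGroup.mk_surjective z
    obtain ⟨π, a, σ, h3, c, τ, h4⟩ := hlift b
    obtain ⟨k, hk⟩ := hgen ⟨τ, b, b.2, π, a, σ, h3, c, h4⟩
    have hk' : τ0 ^ k = τ := congrArg Subtype.val hk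
    refine ⟨k, ?_⟩
    show (QuotientGroup.mk (⟨b0, hb0⟩ : B) : B ⧸ φ.range) ^ k = QuotientGroup.mk b
    rw [← QuotientGroup.mk_zpow, QuotientGroup.eq, hmem]
    -- powers
    have hpow : ∀ k : ℤ, ∃ π a σ, Rep hT e (b0 ^ k) π a σ ∧ ∃ c : F₁, SR e₁ π c (τ0 ^ k) := by
      have hnat : ∀ k : ℕ, ∃ π a σ, Rep hT e (b0 ^ k) π a σ ∧ ∃ c : F₁, SR e₁ π c (τ0 ^ k) := by
        intro k
        induction k with
        | zero =>
          rw [pow_zero, pow_zero]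
          exact ⟨1, 1, 1, Rep.one, 1, SR.one⟩
        | succ k ih =>
          obtain ⟨π', a', σ', h5, c', h6⟩ := ih
          rw [pow_succ, pow_succ]
          exact ⟨_, _, _, h5.mul h1, _, h6.mul h2⟩
      intro k
      obtain ⟨m, rfl | rfl⟩ := k.eq_nat_or_neg
      · rw [zpow_natCast, zpow_natCast]
        exact hnat m
      · obtain ⟨π', a', σ', h5, c', h6⟩ := hnat m
        rw [_root_.zpow_neg, _root_.zpow_neg, zpow_natCast, zpow_natCast]
        exact ⟨_, _, _, h5.inv, _, h6.inv⟩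
    obtain ⟨π', a', σ', h5, c', h6⟩ := hpow k
    have h7 := h6.inv.mul h4
    rw [hk', inv_mul_cancel] at h7
    exact ⟨_, _, _, h5.inv.mul h3, _, h7⟩

end metac

section borel

variable {G : Type u} [Group G] [Finite G] {T H B : Subgroup G} {F : Type} [Field F] [Fintype F] {p f : ℕ}

omit [Fintype F] in
/-- `SL_2(F)` is transitive -/
theorem sl_two_trans {w : Fin 2 → F} (hw : w ≠ 0) :
    ∃ s : Matrix.SpecialLinearGroup (Fin 2) F, (s : Matrix (Fin 2) (Fin 2) F) *ᵥ ![1, 0] = w := by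
  by_cases h0 : w 0 = 0
  · have h1 : w 1 ≠ 0 := by
      intro h1
      apply hw
      funext i
      fin_cases i
      · exact h0
      · exact h1
    refine ⟨⟨!![0, -(w 1)⁻¹; w 1, 0], by rw [Matrix.det_fin_two_of]; field_simp; ring⟩, ?_⟩
    funext i
    fin_cases i
    · simp [Matrix.mulVec, dotProduct, Fin.sum_univ_two, h0]
    · simp [Matrix.mulVec, dotProduct, Fin.sum_univ_two]
  · refine ⟨⟨!![w 0, 0; w 1, (w 0)⁻¹], by rw [Matrix.det_fin_two_of]; field_simp; ring⟩, ?_⟩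
    funext i
    fin_cases i
    · simp [Matrix.mulVec, dotProduct, Fin.sum_univ_two]
    · simp [Matrix.mulVec, dotProduct, Fin.sum_univ_two]

omit [Finite G] [Fintype F] in
theorem fix_line (hT : T.Normal) {e : T ≃* Matrix.ProjectiveSpecialLinearGroup (Fin 2) F} {Q : Sylow p T}
    (hQ : ∀ t : T, t ∈ Q ↔ ∃ c : F, e t = pr (up c)) {y : G} (hy : y ∈ SG Q) {π : Equiv.Perm (Fin 2 → F)} {a : GL (Fin 2) F}
    {σ : F ≃+* F} (h : Rep hT e y π a σ) : ∃ c : F, c ≠ 0 ∧ π ![1, 0] = c • ![1, 0] := by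
  have h0 := upper hT hQ hy h.au_eq
  obtain ⟨h00, -, -⟩ := af_formula (hT := hT) (e := e) h.au_eq h0
  refine ⟨_, h00, ?_⟩
  rw [h.eq]
  funext i
  fin_cases i
  · simp [Matrix.mulVec, dotProduct, Fin.sum_univ_two]
  · simp [Matrix.mulVec, dotProduct, Fin.sum_univ_two, h0]

/-- `B` is transitive on the points -/
theorem trans_two (hf : Fac T H B) {e : T ≃* Matrix.ProjectiveSpecialLinearGroup (Fin 2) F} {Q : Sylow p T} [T.Normal]
    (hQ : ∀ t : T, t ∈ Q ↔ ∃ c : F, e t = pr (up c)) (hH : H ≤ SG Q) {u w : Fin 2 → F} (hu : u ≠ 0)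
    (hw : w ≠ 0) : ∃ π ∈ Lf hf.normal e B, ∃ c : F, c ≠ 0 ∧ π u = c • w := by
  have key : ∀ w : Fin 2 → F, w ≠ 0 → ∃ π ∈ Lf hf.normal e B, ∃ c : F, c ≠ 0 ∧ π ![1, 0] = c • w := by
    intro w hw
    obtain ⟨s, hgw⟩ := sl_two_trans hw
    obtain ⟨t, ht⟩ := e.surjective (pr s)
    obtain ⟨x, hx, y, hy, hxy⟩ := hf.symm.exists_mul (t : G)
    obtain ⟨ρ, b, τ, hρ⟩ := exists_lift hf.normal e y⁻¹
    obtain ⟨c, hc0, hc⟩ := fix_line hf.normal hQ (hH (inv_mem hy)) hρ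
    have h1 : au hf.normal e (t : G) = Psi 2 F (Matrix.SpecialLinearGroup.toGL s) * phi 2 F 1 := by
      rw [au_coe, ht, map_one, mul_one]
      exact (Psi_coe s).symm
    obtain ⟨π, hπ⟩ := exists_rep hf.normal e h1
    have h2 := hπ.mul hρ
    refine ⟨π * ρ, ⟨t * y⁻¹, ?_, _, _, h2⟩, c, hc0, ?_⟩
    · rw [← hxy, mul_inv_cancel_right]
      exact hx
    · rw [Equiv.Perm.mul_apply, hc, hπ.smul, hπ.eq]
      rw [← hgw]
      rfl
  obtain ⟨π, hπ, c, hc0, hc⟩ := key u hu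
  obtain ⟨ρ, hρ, d, hd0, hd⟩ := key w hw
  obtain ⟨x, hx, a, σ, hr⟩ := inv_mem hπ
  refine ⟨ρ * π⁻¹, mul_mem hρ (inv_mem hπ), ?_⟩
  have h1 : π⁻¹ u = (σ c)⁻¹ • ![1, 0] := by
    have h2 : π⁻¹ (c • u) = σ c • π⁻¹ u := hr.smul c u
    rw [← hc, show π⁻¹ (π ![1, 0]) = ![1, 0] from π.symm_apply_apply _] at h2
    have h3 : σ c ≠ 0 := (map_ne_zero_iff σ σ.injective).2 hc0
    rw [h2, smul_smul, inv_mul_cancel₀ h3, one_smul]
  obtain ⟨y, hy, b, τ, hr'⟩ := hρ
  refine ⟨τ ((σ c)⁻¹) * d, mul_ne_zero ?_ hd0, ?_⟩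
  · rw [Ne, map_eq_zero_iff τ τ.injective, inv_eq_zero, map_eq_zero_iff σ σ.injective]
    exact hc0
  · rw [Equiv.Perm.mul_apply, h1, hr'.smul, hd, smul_smul]

omit [Finite G] [Fintype F] in
theorem rep_pow {hT : T.Normal} {e : T ≃* Matrix.ProjectiveSpecialLinearGroup (Fin 2) F} {x : G} {π : Equiv.Perm (Fin 2 → F)}
    {a : GL (Fin 2) F} {σ : F ≃+* F} (h : Rep hT e x π a σ) (k : ℕ) : ∃ b τ, Rep hT e (x ^ k) (π ^ k) b τ := by
  induction k with
  | zero => exact ⟨1, 1, by rw [pow_zero, pow_zero]; exact Rep.one⟩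
  | succ k ih =>
    obtain ⟨b, τ, h1⟩ := ih
    rw [pow_succ, pow_succ]
    exact ⟨_, _, h1.mul h⟩

omit [Finite G] [Fintype F] in
/-- no element of order `p` in the group of lifts -/
theorem no_p_two (hf : Fac T H B) (e : T ≃* Matrix.ProjectiveSpecialLinearGroup (Fin 2) F) [Fact p.Prime] [CharP F p]
    (hpB : ¬ p ∣ Nat.card B) {π : Equiv.Perm (Fin 2 → F)} (hπ : π ∈ Lf hf.normal e B) (hp : π ^ p = 1) : π = 1 := by
  obtain ⟨x, hx, a, σ, hr⟩ := hπ
  obtain ⟨b, τ, h1⟩ := rep_pow hr p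
  rw [hp] at h1
  have h2 : x ^ p = 1 := (h1.unique hf.cent (by norm_num) Rep.one).1
  have h3 : x = 1 := by
    by_contra hne
    apply hpB
    have h4 : orderOf x = p := orderOf_eq_prime h2 hne
    have h5 : orderOf (⟨x, hx⟩ : B) = p := by rw [Subgroup.orderOf_mk, h4]
    rw [← h5]
    exact orderOf_dvd_natCard _
  subst h3
  obtain ⟨-, c, hc, h4⟩ := hr.unique' le_rfl (Rep.one)
  have h5 : ∀ (k : ℕ) (w : Fin 2 → F), (π ^ k) w = c ^ k • w := by
    intro k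
    induction k with
    | zero => intro w; rw [pow_zero, pow_zero, one_smul]; rfl
    | succ k ih =>
      intro w
      rw [pow_succ, Equiv.Perm.mul_apply, h4, ih, smul_smul, ← pow_succ]
      rfl
  have h60 : c ^ p • (![1, 0] : Fin 2 → F) = ![1, 0] := by
    rw [← h5, hp]
    rfl
  have h6 := congrFun h60 0
  simp at h6
  have h7 : c = 1 := by
    have h8 : (c - 1) ^ p = 0 := by rw [sub_pow_char, h6, one_pow]; exact sub_self _
    exact sub_eq_zero.1 (pow_eq_zero_iff (Fact.out : p.Prime).ne_zero |>.1 h8)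
  apply Equiv.ext
  intro w
  rw [h4, h7, one_smul]

theorem index_normalizer_T [Fact p.Prime] [CharP F p] (e : T ≃* Matrix.ProjectiveSpecialLinearGroup (Fin 2) F) (Q : Sylow p T) :
    (normalizer ((Q : Subgroup T) : Set T)).index = Fintype.card F + 1 := by
  have h3 : (normalizer ((Q : Subgroup T) : Set T)).map e.toMonoidHom =
      normalizer (((Q.mapSurjective (f := e.toMonoidHom) e.surjective : Sylow p (Matrix.ProjectiveSpecialLinearGroup (Fin 2) F)) :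
        Subgroup (Matrix.ProjectiveSpecialLinearGroup (Fin 2) F)) : Set (Matrix.ProjectiveSpecialLinearGroup (Fin 2) F)) :=
    Subgroup.map_equiv_normalizer_eq (Q : Subgroup T) e
  have h4 := Cfsg.Agent.H436.TT.index_normalizer (F := F) p (Q.mapSurjective (f := e.toMonoidHom) e.surjective)
  rw [← h3] at h4
  rw [← h4]
  exact (Subgroup.index_map_of_bijective (f := e.toMonoidHom) e.bijective _).symm

/-- the order in the case of the point stabiliser -/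
theorem card_borel [Fact p.Prime] [CharP F p] [T.Normal] (hex : Ex T H B) (e : T ≃* Matrix.ProjectiveSpecialLinearGroup (Fin 2) F)
    {Q : Sylow p T} (hH : H ≤ SG Q) : Nat.card B = Fintype.card F + 1 := by
  have hi := index_normalizer_T e Q
  have hne : SG Q ≠ ⊤ := by
    intro htop
    have h1 := SG_subgroupOf Q
    rw [htop, Subgroup.top_subgroupOf] at h1
    rw [← h1, Subgroup.index_top] at hi
    have := Fintype.card_pos (α := F)
    omega
  have hHeq : SG Q = H := by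
    by_contra hne'
    exact hne (hex.max.2 _ (lt_of_le_of_ne hH (Ne.symm hne')))
  have h1 := hex.card_mul
  have h2 := (H.subgroupOf T).card_mul_index
  have h3 : Nat.card B = (H.subgroupOf T).index := Nat.eq_of_mul_eq_mul_left Nat.card_pos (h1.trans h2.symm)
  rw [h3, ← hHeq, SG_subgroupOf, hi]

/-- **the case of the point stabiliser** -/
theorem case_borel (hA : HAct) [Fact p.Prime] [CharP F p] (hex : Ex T H B) (hfac : Fac T H B) (hbig : 29823000000 < Fintype.card F)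
    (e0 : T ≃* Matrix.ProjectiveSpecialLinearGroup (Fin 2) F) [hTn : T.Normal] (hHQ : ∃ Q : Sylow p T, H ≤ SG Q) : Concl B := by
  classical
  obtain ⟨Q, hHQ⟩ := hHQ
  have hcB := card_borel hex e0 hHQ
  obtain ⟨e, hQ⟩ := exists_coord e0 Q
  have hp : p.Prime := Fact.out
  obtain ⟨k, -, hk⟩ := FiniteField.card F p
  have hpq : p ∣ Fintype.card F := by rw [hk]; exact dvd_pow_self p k.ne_zero
  have hpB : ¬ p ∣ Nat.card B := by
    rw [hcB]
    intro h
    exact hp.one_lt.ne' (Nat.dvd_one.1 ((Nat.dvd_add_right hpq).1 h))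
  have hnt : Nontrivial (Fin 2 → F) := inferInstance
  have h1 : ∃ (F₁ : Type) (_ : Field F₁) (_ : Fintype F₁) (e₁ : (Fin 2 → F) ≃+ F₁), Fintype.card F₁ = Fintype.card F ^ 2 ∧
      ∀ π ∈ Lf hTn e B, ∃ (c : F₁) (σ : F₁ ≃+* F₁), ∀ w, e₁ (π w) = c * σ (e₁ w) := by
    rcases hA (K := F) (V := Fin 2 → F) (Fintype.card F) 2 rfl (Module.finrank_fin_fun F) le_rfl (Lf hTn e B)
      (by rintro π ⟨x, hx, a, σ, hr⟩ u w; exact hr.add u w)
      (by rintro π ⟨x, hx, a, σ, hr⟩; exact ⟨σ, hr.smul⟩)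
      (by
        intro u w hu hw
        obtain ⟨π, hπ, c, -, hc⟩ := trans_two hfac hQ hHQ hu hw
        exact ⟨π, hπ, c, hc⟩) with h1 | h1 | h1
    · exact h1
    · exfalso
      obtain ⟨π, hπ, hne, -, hpp⟩ := nat_elt (p := p) rfl h1
      exact hne (no_p_two hfac e hpB hπ hpp)
    · exfalso
      rcases h1 with ⟨-, h1, -⟩ | ⟨-, h1, -⟩ | ⟨h1, -⟩ | ⟨h1, -⟩ | ⟨h1, -⟩ | ⟨h1, -⟩ <;> omega
  obtain ⟨F₁, _, _, e₁, -, hsl⟩ := h1
  refine Or.inl ⟨Fintype.card F, 2, FiniteField.isPrimePow_card F, ?_,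
    metacyclic hTn hex.cent (by norm_num) B (exists_lift hTn e) e₁ hsl⟩
  rw [hcB, sq_sub, mul_comm]

end borel

/-- **the row `PSL_2(q)`**, with Hering's theorem as a hypothesis -/
theorem row_psl_two (hA : HAct) {G : Type u} [Group G] [Finite G] (T H B : Subgroup G) (hex : Ex T H B) (hfac : Fac T H B)
    (F : Type) [Field F] [Fintype F] (hbig : 29823000000 < Fintype.card F)
    (e : T ≃* Matrix.ProjectiveSpecialLinearGroup (Fin 2) F) : Concl B := by
  have hTn := hex.normal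
  obtain ⟨p, hchar⟩ := CharP.exists F
  have : Fact p.Prime := ⟨CharP.char_is_prime F p⟩
  obtain ⟨k, -, hk⟩ := FiniteField.card F p
  rcases red hfac hk hbig e with ⟨h1, h2, h3⟩ | ⟨h1, h2, h3⟩
  · exact case_dih hex hfac hbig e hk h1 h2 (le_SG e B h3 h2)
  · exact case_borel hA hex hfac hbig e (le_SG e H h3 h2)

end Cfsg.Agent.H370.Rg.P2
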